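import Mathlib
import Cfsg.Prelude.Def_LieExceptional

set_option autoImplicit false

namespace Cfsg.Agent.Lib.Helper6

variable {G Ω : Type*} [Group G] [MulAction G Ω]

theorem zass_card_fixedBy_eq [Fintype Ω] [DecidableEq Ω] (s : G) :
    Nat.card (MulAction.fixedBy Ω s) = (Finset.univ.filter (fun x : Ω => s • x = x)).card := by
  rw [Nat.card_coe_set_eq, ← Set.ncard_coe_finset]
  congr 1
  ext x
  simp [MulAction.mem_fixedBy]

theorem zass_card_fixedBy_le_two [Fintype Ω] (hZ : Cfsg.IsZassenhausGroup G Ω) (s : G)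
    (hs : s ≠ 1) : Nat.card (MulAction.fixedBy Ω s) ≤ 2 := by
  classical
  rw [zass_card_fixedBy_eq]
  by_contra hcon
  push_neg at hcon
  obtain ⟨x, hx, y, hy, z, hz, hxy, hxz, hyz⟩ := Finset.two_lt_card.mp hcon
  simp only [Finset.mem_filter, Finset.mem_univ, true_and] at hx hy hz
  exact hs (hZ.2.2.1 s x y z hxy hyz hxz hx hy hz)

theorem zass_card_fixedBy_modEq [Fintype Ω] (s : G) (hs : s ^ 2 = 1) :
    Fintype.card Ω ≡ Nat.card (MulAction.fixedBy Ω s) [MOD 2] := by
  classical
  have h := Equiv.Perm.card_fixedPoints_modEq (α := Ω) (f := (fun x : Ω => s • x)) (p := 2)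
    (n := 1) (by
      rw [pow_one]
      funext x
      show s • s • x = x
      rw [smul_smul, ← pow_two, hs, one_smul])
  have h2 : Fintype.card (Function.fixedPoints (fun x : Ω => s • x)) =
      Nat.card (MulAction.fixedBy Ω s) := by
    rw [← Nat.card_eq_fintype_card]
    rfl
  rw [← h2]; exact h

theorem zass_card_fixedBy_conj (h t : G) :
    Nat.card (MulAction.fixedBy Ω (h * t * h⁻¹)) = Nat.card (MulAction.fixedBy Ω t) := by
  rw [← MulAction.smul_fixedBy, Nat.card_coe_set_eq, Nat.card_coe_set_eq, ← Set.image_smul]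
  exact Set.ncard_image_of_injective _ (MulAction.injective h)

/-- orbit-stabiliser count for a point stabiliser in a 2-transitive action, with finsets -/
theorem zass_card_stab_eq [Fintype G] [Fintype Ω] [DecidableEq Ω] [DecidableEq G]
    (h2 : ∀ {a b c d : Ω}, a ≠ b → c ≠ d → ∃ g : G, g • a = c ∧ g • b = d) (a b : Ω)
    (hab : a ≠ b) :
    (Finset.univ.filter (fun x : G => x • a = a)).card =
      (Fintype.card Ω - 1) * (Finset.univ.filter (fun x : G => x • a = a ∧ x • b = b)).card := by
  set T := Finset.univ.filter (fun x : G => x • a = a) with hT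
  set Tb := Finset.univ.filter (fun x : G => x • a = a ∧ x • b = b) with hTb
  have hmaps : ∀ x ∈ T, x • b ∈ Finset.univ.erase a := by
    intro x hx
    rw [hT, Finset.mem_filter] at hx
    rw [Finset.mem_erase]
    refine ⟨?_, Finset.mem_univ _⟩
    intro h
    exact hab (MulAction.injective x (hx.2.trans h.symm))
  rw [Finset.card_eq_sum_card_fiberwise (f := fun x : G => x • b) (t := Finset.univ.erase a)
    (fun x hx => hmaps x (Finset.mem_coe.mp hx))]
  have hfib : ∀ c ∈ Finset.univ.erase a, (T.filter (fun x => x • b = c)).card = Tb.card := by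
    intro c hc
    rw [Finset.mem_erase] at hc
    obtain ⟨g, hga, hgb⟩ := h2 hab (Ne.symm hc.1)
    apply Finset.card_bij (fun x _ => g⁻¹ * x)
    · intro x hx
      rw [Finset.mem_filter, hT, Finset.mem_filter] at hx
      rw [hTb, Finset.mem_filter]
      refine ⟨Finset.mem_univ _, ?_, ?_⟩
      · rw [mul_smul, hx.1.2, inv_smul_eq_iff, hga]
      · rw [mul_smul, hx.2, inv_smul_eq_iff, hgb]
    · intro x _ y _ hxy
      exact mul_left_cancel hxy
    · intro y hy
      rw [hTb, Finset.mem_filter] at hy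
      refine ⟨g * y, ?_, by group⟩
      rw [Finset.mem_filter, hT, Finset.mem_filter]
      refine ⟨⟨Finset.mem_univ _, ?_⟩, ?_⟩
      · rw [mul_smul, hy.2.1, hga]
      · rw [mul_smul, hy.2.2, hgb]
  rw [Finset.sum_congr rfl hfib, Finset.sum_const, Finset.card_erase_of_mem (Finset.mem_univ a),
    Finset.card_univ, smul_eq_mul]

end Cfsg.Agent.Lib.Helper6
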