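import Mathlib
import Cfsg.Agent.Lib.Helper6.Zass

set_option autoImplicit false

namespace Cfsg.Agent.Lib.Helper6

section
variable {G Ω : Type*} [Group G] [MulAction G Ω]

/-- transitive: `|G| = |Ω| * |G_a|`, with finsets -/
theorem sharp2_card_group [Fintype G] [Fintype Ω] [DecidableEq Ω] [DecidableEq G]
    (ht : ∀ a b : Ω, ∃ g : G, g • a = b) (a : Ω) :
    Fintype.card G = Fintype.card Ω * (Finset.univ.filter (fun x : G => x • a = a)).card := by
  rw [← Finset.card_univ (α := G), Finset.card_eq_sum_card_fiberwise (f := fun x : G => x • a)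
    (s := Finset.univ) (t := Finset.univ) (fun x _ => Finset.mem_coe.mpr (Finset.mem_univ _))]
  have hfib : ∀ c ∈ (Finset.univ : Finset Ω),
      ((Finset.univ : Finset G).filter (fun x => x • a = c)).card =
        (Finset.univ.filter (fun x : G => x • a = a)).card := by
    intro c _
    obtain ⟨g, hg⟩ := ht a c
    apply Finset.card_bij (fun x _ => g⁻¹ * x)
    · intro x hx
      rw [Finset.mem_filter] at hx ⊢
      exact ⟨Finset.mem_univ _, by rw [mul_smul, hx.2, inv_smul_eq_iff, hg]⟩
    · intro x _ y _ hxy; exact mul_left_cancel hxy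
    · intro y hy
      rw [Finset.mem_filter] at hy
      exact ⟨g * y, by rw [Finset.mem_filter]; exact ⟨Finset.mem_univ _, by rw [mul_smul, hy.2, hg]⟩,
        by group⟩
  rw [Finset.sum_congr rfl hfib, Finset.sum_const, Finset.card_univ, smul_eq_mul]

/-- the set of identity and fixed-point-free elements of a sharply 2-transitive group is closed
under multiplication -/
theorem sharp2_mul_closed [Fintype G] [Fintype Ω] [DecidableEq Ω] [DecidableEq G]
    (h2 : ∀ {a b c d : Ω}, a ≠ b → c ≠ d → ∃ g : G, g • a = c ∧ g • b = d)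
    (hsh : ∀ (g : G) (a b : Ω), a ≠ b → g • a = a → g • b = b → g = 1)
    (a₀ b₀ : Ω) (hab₀ : a₀ ≠ b₀)
    (hKcard : (Finset.univ.filter (fun g : G => g = 1 ∨ ∀ a : Ω, g • a ≠ a)).card = Fintype.card Ω) :
    ∀ x y : G, (x = 1 ∨ ∀ a : Ω, x • a ≠ a) → (y = 1 ∨ ∀ a : Ω, y • a ≠ a) →
      (x * y = 1 ∨ ∀ a : Ω, (x * y) • a ≠ a) := by
  set n := Fintype.card Ω with hn'
  set KF := Finset.univ.filter (fun g : G => g = 1 ∨ ∀ a : Ω, g • a ≠ a) with hKF
  have hKmem : ∀ g : G, g ∈ KF ↔ g = 1 ∨ ∀ a : Ω, g • a ≠ a := by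
    intro g; rw [hKF, Finset.mem_filter]; simp
  have ht : ∀ a b : Ω, ∃ g : G, g • a = b := by
    intro a b
    by_cases hab : a = b
    · exact ⟨1, by rw [one_smul, hab]⟩
    · obtain ⟨g, hg, _⟩ := h2 hab (Ne.symm hab)
      exact ⟨g, hg⟩
  have hswap : ∀ a b : Ω, a ≠ b → ∃ t : G, t • a = b ∧ t • b = a ∧ t * t = 1 ∧ t ≠ 1 ∧
      ∀ s : G, s • a = b → s • b = a → s = t := by
    intro a b hab
    obtain ⟨t, hta, htb⟩ := h2 hab (Ne.symm hab)
    refine ⟨t, hta, htb, ?_, ?_, ?_⟩
    · apply hsh (t * t) a b hab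
      · rw [mul_smul, hta, htb]
      · rw [mul_smul, htb, hta]
    · rintro rfl; rw [one_smul] at hta; exact hab hta
    · intro s hsa hsb
      have h5 : t⁻¹ * s = 1 := by
        apply hsh (t⁻¹ * s) a b hab
        · rw [mul_smul, hsa, inv_smul_eq_iff, hta]
        · rw [mul_smul, hsb, inv_smul_eq_iff, htb]
      exact (inv_mul_eq_one.mp h5).symm
  have hI2 : ∀ s t : G, s * s = 1 → t * t = 1 → s ≠ t → ∀ c : Ω, (s * t) • c = c →
      s • c = c ∧ t • c = c := by
    intro s t hs ht' hst c hc
    have h1 : t • c = s • c := by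
      have h5 : s • (s * t) • c = s • c := by rw [hc]
      rwa [← mul_smul, ← mul_assoc, hs, one_mul] at h5
    by_cases he : t • c = c
    · exact ⟨by rw [← h1, he], he⟩
    · exfalso
      obtain ⟨u, hu1, hu2, _, _, huniq⟩ := hswap c (t • c) (Ne.symm he)
      have htc : t • (t • c) = c := by rw [← mul_smul, ht', one_smul]
      have hsc : s • (t • c) = c := by rw [h1, ← mul_smul, hs, one_smul]
      have e1 := huniq t rfl htc
      have e2 := huniq s h1.symm hsc
      exact hst (e2.trans e1.symm)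
  set IF := Finset.univ.filter (fun t : G => t * t = 1 ∧ t ≠ 1) with hIF
  have hImem : ∀ t, t ∈ IF ↔ t * t = 1 ∧ t ≠ 1 := by
    intro t; rw [hIF, Finset.mem_filter]; simp
  have hn2 : 2 ≤ n := by
    have h5 : 1 < Fintype.card Ω := Fintype.one_lt_card_iff.mpr ⟨a₀, b₀, hab₀⟩
    omega
  by_cases hcase : ∀ t ∈ IF, ∀ a : Ω, t • a ≠ a
  · -- involutions are fixed-point-free
    have hsub : IF ⊆ KF.erase 1 := by
      intro t ht'
      rw [Finset.mem_erase, hKmem]
      exact ⟨((hImem t).mp ht').2, Or.inr (hcase t ht')⟩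
    have hcardI : n - 1 ≤ IF.card := by
      have h5 : ((Finset.univ : Finset Ω).erase a₀).card ≤ IF.card := by
        apply Finset.card_le_card_of_injOn
          (fun b => if h : a₀ ≠ b then Classical.choose (hswap a₀ b h) else 1)
        · intro b hb
          have hb' := Finset.mem_coe.mp hb
          rw [Finset.mem_erase] at hb'
          have hne : a₀ ≠ b := Ne.symm hb'.1
          apply Finset.mem_coe.mpr
          rw [hImem]
          simp only [dif_pos hne]
          have hspec := Classical.choose_spec (hswap a₀ b hne)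
          exact ⟨hspec.2.2.1, hspec.2.2.2.1⟩
        · intro b hb b' hb' hbb'
          have hb1 := Finset.mem_coe.mp hb
          have hb1' := Finset.mem_coe.mp hb'
          rw [Finset.mem_erase] at hb1 hb1'
          have hne : a₀ ≠ b := Ne.symm hb1.1
          have hne' : a₀ ≠ b' := Ne.symm hb1'.1
          simp only [dif_pos hne, dif_pos hne'] at hbb'
          have hspec := Classical.choose_spec (hswap a₀ b hne)
          have hspec' := Classical.choose_spec (hswap a₀ b' hne')
          rw [← hspec.1, ← hspec'.1, hbb']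
      rwa [Finset.card_erase_of_mem (Finset.mem_univ a₀), Finset.card_univ] at h5
    have hIeq : IF = KF.erase 1 := by
      apply Finset.eq_of_subset_of_card_le hsub
      rw [Finset.card_erase_of_mem ((hKmem 1).mpr (Or.inl rfl)), hKcard]
      exact hcardI
    intro x y hx hy
    by_cases hx1 : x = 1
    · rw [hx1, one_mul]; exact hy
    by_cases hy1 : y = 1
    · rw [hy1, mul_one]; exact hx
    have hxI : x ∈ IF := by rw [hIeq, Finset.mem_erase]; exact ⟨hx1, (hKmem x).mpr hx⟩
    have hyI : y ∈ IF := by rw [hIeq, Finset.mem_erase]; exact ⟨hy1, (hKmem y).mpr hy⟩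
    have hxI' := (hImem x).mp hxI
    have hyI' := (hImem y).mp hyI
    by_cases hxy : x = y
    · left; rw [hxy]; exact hyI'.1
    · right
      intro c hc
      exact hcase x hxI c (hI2 x y hxI'.1 hyI'.1 hxy c hc).1
  · -- some involution has a fixed point
    push_neg at hcase
    obtain ⟨t₀, ht₀, c₀, hc₀⟩ := hcase
    have ht₀' := (hImem t₀).mp ht₀
    have hmoved : ∀ t : G, t ≠ 1 → ∃ a : Ω, t • a ≠ a := by
      intro t ht1
      by_contra hcon
      push_neg at hcon
      exact ht1 (hsh t a₀ b₀ hab₀ (hcon a₀) (hcon b₀))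
    have hconjI : ∀ (g t : G), t ∈ IF → g * t * g⁻¹ ∈ IF := by
      intro g t ht'
      rw [hImem] at ht' ⊢
      refine ⟨?_, ?_⟩
      · calc g * t * g⁻¹ * (g * t * g⁻¹) = g * (t * t) * g⁻¹ := by group
          _ = 1 := by rw [ht'.1]; group
      · intro h
        apply ht'.2
        have e3 : t = g⁻¹ * (g * t * g⁻¹) * g := by group
        rw [e3, h]; group
    -- every involution has a fixed point
    have hfixI : ∀ t ∈ IF, ∃ c : Ω, t • c = c := by
      intro t ht'
      have ht'' := (hImem t).mp ht'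
      obtain ⟨a, ha⟩ := hmoved t ht''.2
      obtain ⟨a', ha'⟩ := hmoved t₀ ht₀'.2
      obtain ⟨g, hga, hgb⟩ := h2 (Ne.symm ha') (Ne.symm ha)
      obtain ⟨u, hu1, hu2, _, _, huniq⟩ := hswap a (t • a) (Ne.symm ha)
      have e1 := huniq t rfl (by rw [← mul_smul, ht''.1, one_smul])
      have htt₀ : t₀ • t₀ • a' = a' := by rw [← mul_smul, ht₀'.1, one_smul]
      have e2 := huniq (g * t₀ * g⁻¹)
        (by rw [mul_smul, mul_smul, inv_smul_eq_iff.mpr hga.symm, hgb])
        (by rw [mul_smul, mul_smul, inv_smul_eq_iff.mpr hgb.symm, htt₀, hga])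
      refine ⟨g • c₀, ?_⟩
      rw [e1, ← e2, mul_smul, mul_smul, inv_smul_smul, hc₀]
    have hfixuniq : ∀ t ∈ IF, ∀ c c' : Ω, t • c = c → t • c' = c' → c = c' := by
      intro t ht' c c' hc hc'
      by_contra hne
      exact ((hImem t).mp ht').2 (hsh t c c' hne hc hc')
    -- every point is fixed by an involution
    have hptI : ∀ a : Ω, ∃ t ∈ IF, t • a = a := by
      intro a
      obtain ⟨g, hg⟩ := ht c₀ a
      refine ⟨g * t₀ * g⁻¹, hconjI g t₀ ht₀, ?_⟩
      rw [mul_smul, mul_smul, inv_smul_eq_iff.mpr hg.symm, hc₀, hg]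
    -- count involutions
    have hcount := Finset.sum_card_bipartiteAbove_eq_sum_card_bipartiteBelow
      (r := fun (t : G) (a : Ω) => t • a ≠ a) (s := IF) (t := (Finset.univ : Finset Ω))
    have hL : ∀ t ∈ IF, (Finset.bipartiteAbove (fun (t : G) (a : Ω) => t • a ≠ a)
        (Finset.univ : Finset Ω) t).card = n - 1 := by
      intro t ht'
      obtain ⟨c, hc⟩ := hfixI t ht'
      have h5 := Finset.card_filter_add_card_filter_not (s := (Finset.univ : Finset Ω))
        (fun a : Ω => t • a = a)
      have h6 : (Finset.univ.filter (fun a : Ω => t • a = a)) = {c} := by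
        ext a
        rw [Finset.mem_filter, Finset.mem_singleton]
        constructor
        · intro h; exact hfixuniq t ht' a c h.2 hc
        · intro h; rw [h]; exact ⟨Finset.mem_univ _, hc⟩
      rw [h6, Finset.card_singleton, Finset.card_univ] at h5
      have h7 : Finset.bipartiteAbove (fun (t : G) (a : Ω) => t • a ≠ a) (Finset.univ : Finset Ω) t
          = Finset.univ.filter (fun a : Ω => ¬ t • a = a) := rfl
      rw [h7]
      omega
    have hR : ∀ a ∈ (Finset.univ : Finset Ω), (Finset.bipartiteBelow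
        (fun (t : G) (a : Ω) => t • a ≠ a) IF a).card = n - 1 := by
      intro a _
      have h7 : Finset.bipartiteBelow (fun (t : G) (a : Ω) => t • a ≠ a) IF a
          = IF.filter (fun t : G => t • a ≠ a) := rfl
      rw [h7]
      have h8 : (IF.filter (fun t : G => t • a ≠ a)).card = ((Finset.univ : Finset Ω).erase a).card := by
        apply Finset.card_bij (fun t _ => t • a)
        · intro t ht'
          rw [Finset.mem_filter] at ht'
          rw [Finset.mem_erase]
          exact ⟨ht'.2, Finset.mem_univ _⟩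
        · intro t ht' t' ht'' htt
          rw [Finset.mem_filter] at ht' ht''
          have i1 := (hImem t).mp ht'.1
          have i2 := (hImem t').mp ht''.1
          obtain ⟨u, hu1, hu2, _, _, huniq⟩ := hswap a (t • a) (Ne.symm ht'.2)
          have e1 := huniq t rfl (by rw [← mul_smul, i1.1, one_smul])
          have htt' : t' • a = t • a := htt.symm
          have e2 := huniq t' htt' (by rw [← htt', ← mul_smul, i2.1, one_smul])
          exact e1.trans e2.symm
        · intro b hb
          rw [Finset.mem_erase] at hb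
          obtain ⟨u, hu1, hu2, hu3, hu4, _⟩ := hswap a b (Ne.symm hb.1)
          refine ⟨u, ?_, hu1⟩
          rw [Finset.mem_filter, hImem]
          exact ⟨⟨hu3, hu4⟩, by rw [hu1]; exact hb.1⟩
      rw [h8, Finset.card_erase_of_mem (Finset.mem_univ a), Finset.card_univ]
    rw [Finset.sum_congr rfl hL, Finset.sum_congr rfl hR, Finset.sum_const, Finset.sum_const,
      Finset.card_univ, smul_eq_mul, smul_eq_mul] at hcount
    have hIcard : IF.card = n := Nat.eq_of_mul_eq_mul_right (by omega : 0 < n - 1) hcount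
    -- unique involution per fixed point
    have hinvuniq : ∀ s ∈ IF, ∀ t ∈ IF, ∀ c : Ω, s • c = c → t • c = c → s = t := by
      have himg : (Finset.univ : Finset Ω).image (fun a => Classical.choose (hptI a)) = IF := by
        apply Finset.eq_of_subset_of_card_le
        · intro t ht'
          rw [Finset.mem_image] at ht'
          obtain ⟨a, _, rfl⟩ := ht'
          exact (Classical.choose_spec (hptI a)).1
        · rw [hIcard, Finset.card_image_of_injective, Finset.card_univ]
          intro a a' haa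
          have s1 := Classical.choose_spec (hptI a)
          have s2 := Classical.choose_spec (hptI a')
          have haa' : Classical.choose (hptI a) = Classical.choose (hptI a') := haa
          rw [← haa'] at s2
          exact hfixuniq _ s1.1 a a' s1.2 s2.2
      intro s hs t ht' c hsc htc
      rw [← himg, Finset.mem_image] at hs ht'
      obtain ⟨a, _, rfl⟩ := hs
      obtain ⟨a', _, rfl⟩ := ht'
      have s1 := Classical.choose_spec (hptI a)
      have s2 := Classical.choose_spec (hptI a')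
      have e1 : a = c := hfixuniq _ s1.1 a c s1.2 hsc
      have e2 : a' = c := hfixuniq _ s2.1 a' c s2.2 htc
      rw [e1, e2]
    -- products of involutions lie in KF
    have hprod : ∀ s ∈ IF, ∀ t ∈ IF, s * t ∈ KF := by
      intro s hs t ht'
      rw [hKmem]
      by_cases hst : s = t
      · left; rw [hst]; exact ((hImem t).mp ht').1
      · right
        intro c hc
        have h5 := hI2 s t ((hImem s).mp hs).1 ((hImem t).mp ht').1 hst c hc
        exact hst (hinvuniq s hs t ht' c h5.1 h5.2)
    have himgR : IF.image (fun s => s * t₀) = KF := by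
      apply Finset.eq_of_subset_of_card_le
      · intro g hg
        rw [Finset.mem_image] at hg
        obtain ⟨s, hs, rfl⟩ := hg
        exact hprod s hs t₀ ht₀
      · rw [hKcard, Finset.card_image_of_injective _ (fun s s' h => mul_right_cancel h), hIcard]
    have himgL : IF.image (fun s => t₀ * s) = KF := by
      apply Finset.eq_of_subset_of_card_le
      · intro g hg
        rw [Finset.mem_image] at hg
        obtain ⟨s, hs, rfl⟩ := hg
        exact hprod t₀ ht₀ s hs
      · rw [hKcard, Finset.card_image_of_injective _ (fun s s' h => mul_left_cancel h), hIcard]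
    intro x y hx hy
    have hx' : x ∈ IF.image (fun s => s * t₀) := by rw [himgR]; exact (hKmem x).mpr hx
    have hy' : y ∈ IF.image (fun s => t₀ * s) := by rw [himgL]; exact (hKmem y).mpr hy
    rw [Finset.mem_image] at hx' hy'
    obtain ⟨s₁, hs₁, rfl⟩ := hx'
    obtain ⟨s₂, hs₂, rfl⟩ := hy'
    have e5 : s₁ * t₀ * (t₀ * s₂) = s₁ * s₂ := by
      calc s₁ * t₀ * (t₀ * s₂) = s₁ * (t₀ * t₀) * s₂ := by group
        _ = s₁ * s₂ := by rw [ht₀'.1, mul_one]
    rw [e5]
    exact (hKmem _).mp (hprod s₁ hs₁ s₂ hs₂)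

/-- structure of a finite sharply 2-transitive group: the identity and the fixed-point-free
elements form a normal elementary abelian subgroup of order the degree -/
theorem sharp2_main [Fintype G] [Fintype Ω] [DecidableEq Ω] [DecidableEq G]
    (h2 : ∀ {a b c d : Ω}, a ≠ b → c ≠ d → ∃ g : G, g • a = c ∧ g • b = d)
    (hsh : ∀ (g : G) (a b : Ω), a ≠ b → g • a = a → g • b = b → g = 1)
    (hn : 2 ≤ Fintype.card Ω) :
    ∃ (K : Subgroup G) (p j : ℕ), p.Prime ∧ 1 ≤ j ∧ Fintype.card Ω = p ^ j ∧ Nat.card K = p ^ j ∧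
      K.Normal ∧ (∀ x ∈ K, ∀ y ∈ K, x * y = y * x) ∧ (∀ x ∈ K, x ^ p = 1) ∧
      (∀ g : G, g ∈ K ↔ g = 1 ∨ ∀ a : Ω, g • a ≠ a) ∧ Fintype.card G = p ^ j * (p ^ j - 1) := by
  set n := Fintype.card Ω with hn'
  obtain ⟨a₀, b₀, hab₀⟩ := Fintype.exists_pair_of_one_lt_card (show 1 < Fintype.card Ω by omega)
  have ht : ∀ a b : Ω, ∃ g : G, g • a = b := by
    intro a b
    by_cases hab : a = b
    · exact ⟨1, by rw [one_smul, hab]⟩
    · obtain ⟨g, hg, _⟩ := h2 hab (Ne.symm hab)
      exact ⟨g, hg⟩
  have hstab : ∀ a : Ω, (Finset.univ.filter (fun x : G => x • a = a)).card = n - 1 := by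
    intro a
    obtain ⟨b, hb⟩ : ∃ b, a ≠ b := by
      by_cases h : a = a₀
      · exact ⟨b₀, by rw [h]; exact hab₀⟩
      · exact ⟨a₀, h⟩
    rw [zass_card_stab_eq h2 a b hb]
    have h5 : (Finset.univ.filter (fun x : G => x • a = a ∧ x • b = b)) = {1} := by
      ext x
      simp only [Finset.mem_filter, Finset.mem_univ, true_and, Finset.mem_singleton]
      constructor
      · rintro ⟨h1, h2'⟩; exact hsh x a b hb h1 h2'
      · rintro rfl; simp
    rw [h5, Finset.card_singleton, mul_one]
  have hG : Fintype.card G = n * (n - 1) := by rw [sharp2_card_group ht a₀, hstab a₀]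
  set KF := Finset.univ.filter (fun g : G => g = 1 ∨ ∀ a : Ω, g • a ≠ a) with hKF
  have hKcard : KF.card = n := by
    set B := (Finset.univ : Finset Ω).biUnion
      (fun a => (Finset.univ.filter (fun x : G => x • a = a)).erase 1) with hB
    have hBcard : B.card = n * (n - 1 - 1) := by
      rw [hB, Finset.card_biUnion]
      · rw [Finset.sum_congr rfl (fun a _ => by
          rw [Finset.card_erase_of_mem (by simp), hstab a]), Finset.sum_const, Finset.card_univ,
          smul_eq_mul]
      · intro a _ b _ hab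
        rw [Function.onFun, Finset.disjoint_left]
        intro x hx hx'
        rw [Finset.mem_erase, Finset.mem_filter] at hx hx'
        exact hx.1 (hsh x a b hab hx.2.2 hx'.2.2)
    have hunion : KF ∪ B = Finset.univ := by
      ext g
      simp only [Finset.mem_union, Finset.mem_univ, iff_true]
      by_cases hg : g = 1 ∨ ∀ a : Ω, g • a ≠ a
      · left; rw [hKF, Finset.mem_filter]; exact ⟨Finset.mem_univ _, hg⟩
      · right
        push_neg at hg
        obtain ⟨hg1, a, ha⟩ := hg
        rw [hB, Finset.mem_biUnion]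
        exact ⟨a, Finset.mem_univ _, by
          rw [Finset.mem_erase, Finset.mem_filter]; exact ⟨hg1, Finset.mem_univ _, ha⟩⟩
    have hdisj : Disjoint KF B := by
      rw [Finset.disjoint_left]
      intro g hg hgB
      rw [hKF, Finset.mem_filter] at hg
      rw [hB, Finset.mem_biUnion] at hgB
      obtain ⟨a, _, hga⟩ := hgB
      rw [Finset.mem_erase, Finset.mem_filter] at hga
      rcases hg.2 with h | h
      · exact hga.1 h
      · exact h a hga.2.2
    have hsum := Finset.card_union_of_disjoint hdisj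
    rw [hunion, Finset.card_univ, hG, hBcard] at hsum
    obtain ⟨m, hm⟩ : ∃ m, n = m + 2 := ⟨n - 2, by omega⟩
    rw [hm] at hsum ⊢
    have e1 : m + 2 - 1 = m + 1 := by omega
    have e2 : m + 1 - 1 = m := by omega
    rw [e1, e2] at hsum
    have e3 : (m + 2) * (m + 1) = (m + 2) * m + (m + 2) := by ring
    rw [e3] at hsum
    omega
  have hmul := sharp2_mul_closed h2 hsh a₀ b₀ hab₀ hKcard
  let K : Subgroup G :=
    { carrier := {g | g = 1 ∨ ∀ a : Ω, g • a ≠ a}
      mul_mem' := fun {x y} hx hy => hmul x y hx hy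
      one_mem' := Or.inl rfl
      inv_mem' := by
        intro x hx
        rcases hx with h | h
        · left; rw [h, inv_one]
        · right; intro a ha; exact h a (by rw [inv_smul_eq_iff] at ha; exact ha.symm) }
  have hKmemS : ∀ g : G, g ∈ K ↔ g = 1 ∨ ∀ a : Ω, g • a ≠ a := fun g => Iff.rfl
  have hKn : Nat.card K = n := by
    rw [← hKcard]
    exact Nat.subtype_card KF (fun g => by rw [hKF, Finset.mem_filter]; simp [hKmemS])
  have hKnormal : K.Normal := by
    constructor
    intro k hk g
    rw [hKmemS] at hk ⊢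
    rcases hk with h | h
    · left; rw [h]; group
    · right
      intro a ha
      apply h (g⁻¹ • a)
      rw [mul_smul, mul_smul] at ha
      exact eq_inv_smul_iff.mpr ha
  have hconj : ∀ k ∈ K, k ≠ 1 → ∀ k' ∈ K, k' ≠ 1 → ∃ g : G, g * k * g⁻¹ = k' := by
    intro k hk hk1 k' hk' hk'1
    have hkf : ∀ a : Ω, k • a ≠ a := by
      rcases (hKmemS k).mp hk with h | h
      · exact absurd h hk1
      · exact h
    have hkf' : ∀ a : Ω, k' • a ≠ a := by
      rcases (hKmemS k').mp hk' with h | h
      · exact absurd h hk'1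
      · exact h
    obtain ⟨g, hga, hgb⟩ := h2 (Ne.symm (hkf a₀)) (Ne.symm (hkf' a₀))
    refine ⟨g, ?_⟩
    have hx : (g * k * g⁻¹)⁻¹ * k' ∈ K := K.mul_mem (K.inv_mem (hKnormal.conj_mem k hk g)) hk'
    have hfix : ((g * k * g⁻¹)⁻¹ * k') • a₀ = a₀ := by
      rw [mul_smul, inv_smul_eq_iff, mul_smul, mul_smul, inv_smul_eq_iff.mpr hga.symm, hgb]
    rcases (hKmemS _).mp hx with h | h
    · exact inv_mul_eq_one.mp h
    · exact absurd hfix (h a₀)
  have hn2 : n ≠ 1 := by omega
  obtain ⟨p, hp, hpn⟩ := Nat.exists_prime_and_dvd hn2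
  haveI : Fact p.Prime := ⟨hp⟩
  obtain ⟨u₀', hu₀'⟩ := exists_prime_orderOf_dvd_card' (G := K) p (by rw [hKn]; exact hpn)
  obtain ⟨u₀, hu₀K, hu₀o⟩ : ∃ u₀ : G, u₀ ∈ K ∧ orderOf u₀ = p :=
    ⟨(u₀' : G), u₀'.2, by rw [Subgroup.orderOf_coe]; exact hu₀'⟩
  have hu₀1 : u₀ ≠ 1 := by intro h; rw [h, orderOf_one] at hu₀o; exact hp.one_lt.ne hu₀o
  have hu₀p : u₀ ^ p = 1 := by rw [← hu₀o]; exact pow_orderOf_eq_one u₀
  have hexp : ∀ x ∈ K, x ^ p = 1 := by
    intro x hx
    by_cases hx1 : x = 1
    · rw [hx1, one_pow]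
    · obtain ⟨g, hg⟩ := hconj u₀ hu₀K hu₀1 x hx hx1
      rw [← hg, conj_pow, hu₀p, mul_one, mul_inv_cancel]
  have hPK : IsPGroup p K := by
    intro g
    refine ⟨1, ?_⟩
    rw [pow_one]
    exact Subtype.ext (by rw [Subgroup.coe_pow]; exact hexp g g.2)
  obtain ⟨j, hj⟩ := IsPGroup.iff_card.mp hPK
  have hj1 : 1 ≤ j := by
    by_contra h
    have h0 : j = 0 := by omega
    rw [h0, pow_zero, hKn] at hj
    omega
  haveI : Nontrivial K := ⟨⟨⟨u₀, hu₀K⟩, 1, fun h => hu₀1 (congrArg Subtype.val h)⟩⟩
  haveI : Nontrivial (Subgroup.center K) := hPK.center_nontrivial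
  obtain ⟨z', hz'⟩ := exists_ne (1 : Subgroup.center K)
  obtain ⟨z, hzK, hz1, hzc⟩ : ∃ z : G, z ∈ K ∧ z ≠ 1 ∧ ∀ y ∈ K, y * z = z * y := by
    refine ⟨((z' : K) : G), (z' : K).2, ?_, ?_⟩
    · intro h
      apply hz'
      apply Subtype.ext; apply Subtype.ext
      exact h
    · intro y hy
      have h5 := Subgroup.mem_center_iff.mp z'.2 ⟨y, hy⟩
      exact congrArg Subtype.val h5
  have hcomm : ∀ x ∈ K, ∀ y ∈ K, x * y = y * x := by
    intro x hx y hy
    by_cases hx1 : x = 1
    · rw [hx1, one_mul, mul_one]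
    · obtain ⟨g, hg⟩ := hconj z hzK hz1 x hx hx1
      have hy' : g⁻¹ * y * g⁻¹⁻¹ ∈ K := hKnormal.conj_mem y hy g⁻¹
      have hc := hzc _ hy'
      rw [← hg]
      calc g * z * g⁻¹ * y = g * (z * (g⁻¹ * y * g⁻¹⁻¹)) * g⁻¹ := by group
        _ = g * ((g⁻¹ * y * g⁻¹⁻¹) * z) * g⁻¹ := by rw [hc]
        _ = y * (g * z * g⁻¹) := by group
  refine ⟨K, p, j, hp, hj1, ?_, hj, hKnormal, hcomm, hexp, hKmemS, ?_⟩
  · rw [← hj, hKn]
  · rw [hG, ← hj, hKn]

end

end Cfsg.Agent.Lib.Helper6
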