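import Mathlib
import Cfsg.Agent.Lib.Helper7.PGroupGen

set_option autoImplicit false

namespace Cfsg.Agent.Lib.Helper6

/-- A finite abelian `p`-group is generated by `r` elements, where `p ^ r` is the number of
elements of order dividing `p`. -/
theorem exists_generators_of_comm_pgroup {V : Type*} [CommGroup V] [Finite V] {p : ℕ}
    [Fact p.Prime] (hV : IsPGroup p V) (r : ℕ)
    (hr : Nat.card (powMonoidHom p : V →* V).ker = p ^ r) :
    ∃ f : Fin r → V, Subgroup.closure (Set.range f) = ⊤ := by
  classical
  set φ : V →* V := powMonoidHom p with hφ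
  set R := φ.range with hR
  have h1 : Nat.card V = Nat.card (V ⧸ φ.ker) * Nat.card φ.ker :=
    Subgroup.card_eq_card_quotient_mul_card_subgroup φ.ker
  have h2 : Nat.card (V ⧸ φ.ker) = Nat.card φ.range :=
    Nat.card_congr (QuotientGroup.quotientKerEquivRange φ).toEquiv
  have h3 : Nat.card V = Nat.card (V ⧸ R) * Nat.card R :=
    Subgroup.card_eq_card_quotient_mul_card_subgroup R
  have hQ : Nat.card (V ⧸ R) = p ^ r := by
    rw [← hr]
    have h4 : Nat.card (V ⧸ R) * Nat.card R = Nat.card φ.ker * Nat.card R := by
      rw [← h3, h1, h2, mul_comm]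
    exact Nat.eq_of_mul_eq_mul_right Nat.card_pos h4
  obtain ⟨fb, hfb⟩ := Cfsg.Agent.Lib.Helper7.exists_generators_of_card_prime_pow p r (V ⧸ R) hQ
  let f : Fin r → V := fun i => (fb i).out
  have hf : ∀ i, ((f i : V) : V ⧸ R) = fb i := fun i => QuotientGroup.out_eq' (fb i)
  refine ⟨f, ?_⟩
  set H := Subgroup.closure (Set.range f) with hH
  have hmap : H.map (QuotientGroup.mk' R) = ⊤ := by
    rw [hH, MonoidHom.map_closure, ← Set.range_comp]
    have : (⇑(QuotientGroup.mk' R) ∘ f) = fb := by
      funext i
      exact hf i
    rw [this, hfb]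
  have key1 : ∀ v : V, ∃ h ∈ H, ∃ w : V, v = h * w ^ p := by
    intro v
    have hv : QuotientGroup.mk' R v ∈ H.map (QuotientGroup.mk' R) := by
      rw [hmap]
      exact Subgroup.mem_top _
    obtain ⟨h, hh, hhv⟩ := hv
    have h5 : h⁻¹ * v ∈ R := by
      have : ((h : V) : V ⧸ R) = ((v : V) : V ⧸ R) := hhv
      exact QuotientGroup.eq.mp this
    obtain ⟨w, hw⟩ := h5
    refine ⟨h, hh, w, ?_⟩
    have hw' : w ^ p = h⁻¹ * v := hw
    rw [hw']
    group
  have key2 : ∀ k : ℕ, ∀ v : V, ∃ h ∈ H, ∃ w : V, v = h * w ^ (p ^ k) := by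
    intro k
    induction k with
    | zero =>
      intro v
      exact ⟨1, H.one_mem, v, by simp⟩
    | succ k ih =>
      intro v
      obtain ⟨h, hh, w, hw⟩ := ih v
      obtain ⟨h', hh', w', hw'⟩ := key1 w
      refine ⟨h * h' ^ (p ^ k), H.mul_mem hh (H.pow_mem hh' _), w', ?_⟩
      rw [hw, hw', mul_pow, ← pow_mul, pow_succ, mul_assoc, mul_comm p (p ^ k)]
  obtain ⟨m, hm⟩ := IsPGroup.iff_card.mp hV
  rw [eq_top_iff]
  intro v _
  obtain ⟨h, hh, w, hw⟩ := key2 m v
  have : w ^ (p ^ m) = 1 := by
    rw [← hm]
    exact pow_card_eq_one'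
  rw [hw, this, mul_one]
  exact hh

/-- If an automorphism `α` of a finite abelian group satisfies `α ^ p = 1`, the number of
elements of order dividing `p` is at most the `p`-th power of the number of fixed points. -/
theorem card_ker_pow_le_of_pow_eq_one {V : Type*} [CommGroup V] [Finite V] {p : ℕ}
    [Fact p.Prime] (α : MulAut V) (hα : α ^ p = 1) :
    Nat.card (powMonoidHom p : V →* V).ker ≤ (Nat.card {v : V // α v = v}) ^ p := by
  classical
  have hp : p.Prime := Fact.out
  let a : AddMonoid.End (Additive V) := MonoidHom.toAdditive α.toMonoidHom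
  have ha : ∀ x : Additive V, a x = Additive.ofMul (α x.toMul) := fun x => rfl
  have hmul : ∀ (f g : AddMonoid.End (Additive V)) (x : Additive V), (f * g) x = f (g x) :=
    fun _ _ _ => rfl
  have hadd : ∀ (f g : AddMonoid.End (Additive V)) (x : Additive V), (f + g) x = f x + g x :=
    fun _ _ _ => rfl
  have hneg1 : ∀ x : Additive V, (-1 : AddMonoid.End (Additive V)) x = -x := fun _ => rfl
  have hone : ∀ x : Additive V, (1 : AddMonoid.End (Additive V)) x = x := fun _ => rfl
  have hak : ∀ k : ℕ, ∀ x : Additive V, (a ^ k) x = Additive.ofMul ((α ^ k) x.toMul) := by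
    intro k
    induction k with
    | zero =>
      intro x
      rw [pow_zero, pow_zero, hone]
      rfl
    | succ k ih =>
      intro x
      rw [pow_succ, hmul, ih, ha, pow_succ, MulAut.mul_apply]
      rfl
  obtain ⟨c, hneg1⟩ : ∃ c : AddMonoid.End (Additive V), ∀ x : Additive V, c x = -x :=
    ⟨-1, fun _ => rfl⟩
  have hc : Commute a c := by
    have h : ∀ x : Additive V, (a * c) x = (c * a) x := by
      intro x
      rw [hmul, hmul, hneg1, hneg1, map_neg]
    exact AddMonoidHom.ext h
  have hck : ∀ k : ℕ, ∀ x : Additive V, (c ^ (2 * k)) x = x ∧ (c ^ (2 * k + 1)) x = -x := by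
    intro k
    induction k with
    | zero =>
      intro x
      constructor
      · rw [Nat.mul_zero, pow_zero, hone]
      · rw [Nat.mul_zero, Nat.zero_add, pow_one, hneg1]
    | succ k ih =>
      have h1 : ∀ y : Additive V, (c ^ (2 * (k + 1))) y = y := by
        intro y
        have : 2 * (k + 1) = (2 * k + 1) + 1 := by ring
        rw [this, pow_succ, hmul, hneg1, (ih (-y)).2, neg_neg]
      intro x
      refine ⟨h1 x, ?_⟩
      rw [pow_succ, hmul, h1, hneg1]
  obtain ⟨N, hN⟩ : ∃ N : AddMonoid.End (Additive V), N = a + c := ⟨_, rfl⟩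
  have hNx : ∀ x : Additive V, N x = a x - x := by
    intro x
    rw [hN, hadd, hneg1, sub_eq_add_neg]
  -- N ^ p kills the elements of order p
  have hNp : ∀ x : Additive V, p • x = 0 → (N ^ p) x = 0 := by
    intro x hx
    obtain ⟨r, hr⟩ := hc.exists_add_pow_prime_eq hp
    rw [hN, hr]
    have h1 : (a ^ p) x = x := by
      rw [hak, hα]
      rfl
    have h2 : ((p : AddMonoid.End (Additive V)) * a * c * r) x = 0 := by
      rw [mul_assoc, mul_assoc, hmul, AddMonoid.End.natCast_apply,
        ← map_nsmul, hx, map_zero]
    have h3 : (c ^ p) x = -x ∨ p = 2 := by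
      rcases hp.eq_two_or_odd' with h | h
      · right; exact h
      · left
        obtain ⟨k, hk⟩ := h
        rw [hk]
        exact (hck k x).2
    rw [hadd, hadd, h1, h2, add_zero]
    rcases h3 with h3 | h3
    · rw [h3, add_neg_cancel]
    · subst h3
      have := (hck 1 x).1
      rw [Nat.mul_one] at this
      rw [this, ← two_nsmul]
      exact hx
  -- kernel chain
  have hchain : ∀ k : ℕ, Nat.card {x : Additive V // (N ^ k) x = 0} ≤
      (Nat.card {x : Additive V // N x = 0}) ^ k := by
    intro k
    induction k with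
    | zero =>
      rw [pow_zero, pow_zero]
      have : Subsingleton {x : Additive V // (1 : AddMonoid.End (Additive V)) x = 0} := by
        constructor
        rintro ⟨x, hx⟩ ⟨y, hy⟩
        rw [hone] at hx hy
        exact Subtype.ext (hx.trans hy.symm)
      exact Finite.card_le_one_iff_subsingleton.mpr this
    | succ k ih =>
      let s : Additive V → Additive V := fun y => if h : ∃ x, N x = y then h.choose else 0
      have hs : ∀ x : Additive V, N (s (N x)) = N x := by
        intro x
        have h : ∃ x', N x' = N x := ⟨x, rfl⟩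
        show N (if h : ∃ x', N x' = N x then h.choose else 0) = N x
        rw [dif_pos h]
        exact h.choose_spec
      have hstep : ∀ x : Additive V, (N ^ (k + 1)) x = 0 → (N ^ k) (N x) = 0 := by
        intro x hx
        rw [← hmul, ← pow_succ]
        exact hx
      let ψ : {x : Additive V // (N ^ (k + 1)) x = 0} →
          {x : Additive V // N x = 0} × {x : Additive V // (N ^ k) x = 0} := fun x =>
        (⟨(x : Additive V) - s (N x), by rw [map_sub, hs, sub_self]⟩,
         ⟨N x, hstep x.1 x.2⟩)
      have hψ : Function.Injective ψ := by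
        intro x y hxy
        have h1 : (N x : Additive V) = N y :=
          congrArg (fun t => ((t.2 : {x : Additive V // (N ^ k) x = 0}) : Additive V)) hxy
        have h2 : (x : Additive V) - s (N x) = (y : Additive V) - s (N y) :=
          congrArg (fun t => ((t.1 : {x : Additive V // N x = 0}) : Additive V)) hxy
        rw [h1] at h2
        exact Subtype.ext (sub_left_injective h2)
      have h1 := Nat.card_le_card_of_injective ψ hψ
      rw [Nat.card_prod] at h1
      calc Nat.card {x : Additive V // (N ^ (k + 1)) x = 0}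
          ≤ Nat.card {x : Additive V // N x = 0} * Nat.card {x : Additive V // (N ^ k) x = 0} := h1
        _ ≤ Nat.card {x : Additive V // N x = 0} * (Nat.card {x : Additive V // N x = 0}) ^ k :=
            Nat.mul_le_mul_left _ ih
        _ = (Nat.card {x : Additive V // N x = 0}) ^ (k + 1) := by rw [pow_succ, mul_comm]
  -- kernel of N = fixed points
  have hker : Nat.card {x : Additive V // N x = 0} ≤ Nat.card {v : V // α v = v} := by
    have hfix : ∀ x : Additive V, N x = 0 → α x.toMul = x.toMul := by
      intro x hx
      rw [hNx, ha] at hx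
      have h2 : Additive.ofMul (α x.toMul) = x := sub_eq_zero.mp hx
      exact congrArg Additive.toMul h2
    let θ : {x : Additive V // N x = 0} → {v : V // α v = v} := fun x =>
      ⟨(x : Additive V).toMul, hfix x.1 x.2⟩
    have hθ : Function.Injective θ := by
      intro x y hxy
      have : ((θ x : {v : V // α v = v}) : V) = (θ y : V) := congrArg Subtype.val hxy
      exact Subtype.ext this
    exact Nat.card_le_card_of_injective θ hθ
  -- W injects into ker N^p
  have hW : Nat.card (powMonoidHom p : V →* V).ker ≤
      Nat.card {x : Additive V // (N ^ p) x = 0} := by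
    let θ : (powMonoidHom p : V →* V).ker → {x : Additive V // (N ^ p) x = 0} := fun w =>
      ⟨Additive.ofMul (w : V), by
        apply hNp
        have := w.2
        rw [MonoidHom.mem_ker, powMonoidHom_apply] at this
        rw [← ofMul_pow, this]
        rfl⟩
    have hθ : Function.Injective θ := by
      intro x y hxy
      have : ((θ x : {x : Additive V // (N ^ p) x = 0}) : Additive V) = (θ y : Additive V) :=
        congrArg Subtype.val hxy
      exact Subtype.ext this
    exact Nat.card_le_card_of_injective θ hθ
  calc Nat.card (powMonoidHom p : V →* V).ker ≤ Nat.card {x : Additive V // (N ^ p) x = 0} := hW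
    _ ≤ (Nat.card {x : Additive V // N x = 0}) ^ p := hchain p
    _ ≤ (Nat.card {v : V // α v = v}) ^ p := Nat.pow_le_pow_left hker p

end Cfsg.Agent.Lib.Helper6
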