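import Mathlib

set_option autoImplicit false

namespace Cfsg.Agent.Lib.Helper6

open scoped commutatorElement

theorem comm3_cm {M : Type*} [CommMonoid M] (c d e : M) (n C a b f : ℕ) :
    c ^ n * e ^ n * e ^ C * (c ^ a * e ^ a * d ^ a * d ^ b * e ^ f)
      = c ^ (a + n) * d ^ (b + a) * e ^ (f + n + a + C) := by
  simp only [pow_add]
  ac_rfl

section
variable {G : Type*} [Group G]

theorem comm3_grp (c d e : G) (hcd : Commute c d) (hce : Commute c e) (hde : Commute d e)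
    (n C a b f : ℕ) :
    c ^ n * e ^ n * e ^ C * (c ^ a * e ^ a * d ^ a * d ^ b * e ^ f)
      = c ^ (a + n) * d ^ (b + a) * e ^ (f + n + a + C) := by
  have hk : ∀ u ∈ ({c, d, e} : Set G), ∀ v ∈ ({c, d, e} : Set G), u * v = v * u := by
    intro u hu v hv
    simp only [Set.mem_insert_iff, Set.mem_singleton_iff] at hu hv
    rcases hu with rfl | rfl | rfl <;> rcases hv with rfl | rfl | rfl <;>
      first
        | rfl
        | exact hcd.eq
        | exact hce.eq
        | exact hde.eq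
        | exact hcd.eq.symm
        | exact hce.eq.symm
        | exact hde.eq.symm
  letI : CommGroup (Subgroup.closure ({c, d, e} : Set G)) := Subgroup.closureCommGroupOfComm hk
  have hc : c ∈ Subgroup.closure ({c, d, e} : Set G) := Subgroup.subset_closure (by simp)
  have hd : d ∈ Subgroup.closure ({c, d, e} : Set G) := Subgroup.subset_closure (by simp)
  have he : e ∈ Subgroup.closure ({c, d, e} : Set G) := Subgroup.subset_closure (by simp)
  exact congrArg Subtype.val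
    (comm3_cm (⟨c, hc⟩ : Subgroup.closure ({c, d, e} : Set G)) ⟨d, hd⟩ ⟨e, he⟩ n C a b f)

/-- if `Y X = X Y C` with `C` commuting with `X` and `Y`, and `X ^ n = 1`, then `C ^ n = 1` -/
theorem comm_pow_eq_one (X Y C : G) (h : Y * X = X * Y * C) (hCX : Commute C X)
    (hCY : Commute C Y) (n : ℕ) (hX : X ^ n = 1) : C ^ n = 1 := by
  have h1 : SemiconjBy Y X (X * C) := by
    show Y * X = X * C * Y
    rw [h, mul_assoc, mul_assoc, hCY.eq]
  have h2 := h1.pow_right n
  rw [hCX.symm.mul_pow, hX, one_mul] at h2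
  have h3 : C ^ n * Y = Y := by
    rw [← h2.eq, mul_one]
  exact mul_right_cancel (h3.trans (one_mul Y).symm)

theorem pow_eq_one_of_dvd' (z : G) (p k : ℕ) (h : z ^ p = 1) (hk : p ∣ k) : z ^ k = 1 := by
  obtain ⟨j, rfl⟩ := hk
  rw [pow_mul, h, one_pow]

section formula
variable (x y c d e : G) (hc : y * x = x * y * c) (hd : c * x = x * c * d)
  (he : c * y = y * c * e)

include hd in
theorem sc_x_c (hdc : Commute d c) (k : ℕ) : SemiconjBy x (c ^ k * d ^ k) (c ^ k) := by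
  have h1 : SemiconjBy x (c * d) c := by
    show x * (c * d) = c * x
    rw [hd, mul_assoc]
  have h2 := h1.pow_right k
  rwa [hdc.symm.mul_pow] at h2

include hc he in
theorem sc_x_y (hey : Commute e y) (hec : Commute e c) (n : ℕ) :
    SemiconjBy x (y ^ n * c ^ n * e ^ (n.choose 2)) (y ^ n) := by
  induction n with
  | zero => simp
  | succ n ih =>
    have hb : SemiconjBy x (y * c) y := by
      show x * (y * c) = y * x
      rw [hc, mul_assoc]
    have h1 := ih.mul_right hb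
    have e1 : e ^ (n.choose 2) * y = y * e ^ (n.choose 2) := (hey.pow_left _).eq
    have e2 : c ^ n * y = y * (c ^ n * e ^ n) := ((sc_x_c y c e he hec n).eq).symm
    have e3 : e ^ (n + n.choose 2) * c = c * e ^ (n + n.choose 2) := (hec.pow_left _).eq
    have e4 : (n + 1).choose 2 = n + n.choose 2 := by
      rw [Nat.choose_succ_succ', Nat.choose_one_right]
    have key : y ^ n * c ^ n * e ^ (n.choose 2) * (y * c) =
        y ^ (n + 1) * c ^ (n + 1) * e ^ ((n + 1).choose 2) := by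
      rw [e4]
      calc y ^ n * c ^ n * e ^ (n.choose 2) * (y * c)
          = y ^ n * c ^ n * (e ^ (n.choose 2) * y) * c := by simp only [mul_assoc]
        _ = y ^ n * c ^ n * (y * e ^ (n.choose 2)) * c := by rw [e1]
        _ = y ^ n * (c ^ n * y) * e ^ (n.choose 2) * c := by simp only [mul_assoc]
        _ = y ^ n * (y * (c ^ n * e ^ n)) * e ^ (n.choose 2) * c := by rw [e2]
        _ = y ^ n * y * c ^ n * (e ^ n * e ^ (n.choose 2) * c) := by simp only [mul_assoc]
        _ = y ^ n * y * c ^ n * (e ^ (n + n.choose 2) * c) := by rw [pow_add]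
        _ = y ^ n * y * c ^ n * (c * e ^ (n + n.choose 2)) := by rw [e3]
        _ = y ^ (n + 1) * c ^ (n + 1) * e ^ (n + n.choose 2) := by
          rw [pow_succ, pow_succ]
          simp only [mul_assoc]
    rw [key, ← pow_succ] at h1
    exact h1

include hc hd he in
/-- the collection formula in class three -/
theorem collect3 (hdx : Commute d x) (hdy : Commute d y) (hdc : Commute d c)
    (hex : Commute e x) (hey : Commute e y) (hec : Commute e c) (hde : Commute d e) (n : ℕ) :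
    (x * y) ^ n = x ^ n * y ^ n *
      (c ^ (n.choose 2) * d ^ (n.choose 3) * e ^ (n.choose 2 + 2 * n.choose 3)) := by
  induction n with
  | zero => simp
  | succ n ih =>
    have ea : (n + 1).choose 2 = n.choose 2 + n := by
      rw [Nat.choose_succ_succ', Nat.choose_one_right, add_comm]
    have eb : (n + 1).choose 3 = n.choose 3 + n.choose 2 := by
      rw [Nat.choose_succ_succ', add_comm]
    rw [ea, eb]
    have h_y := sc_x_y x y c e hc he hey hec n
    generalize n.choose 2 = a at *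
    generalize n.choose 3 = b at *
    have h_c := sc_x_c x c d hd hdc a
    have h_d : SemiconjBy x (d ^ b) (d ^ b) := hdx.symm.pow_right b
    have h_e : SemiconjBy x (e ^ (a + 2 * b)) (e ^ (a + 2 * b)) := hex.symm.pow_right _
    have S1 := h_y.mul_right ((h_c.mul_right h_d).mul_right h_e)
    have k1 := sc_x_c y c e he hec n
    have k2 : SemiconjBy y (e ^ a) (e ^ a) := hey.symm.pow_right a
    have k3 := sc_x_c y c e he hec a
    have k4 : SemiconjBy y (d ^ a) (d ^ a) := hdy.symm.pow_right a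
    have k5 : SemiconjBy y (d ^ b) (d ^ b) := hdy.symm.pow_right b
    have k6 : SemiconjBy y (e ^ (a + 2 * b)) (e ^ (a + 2 * b)) := hey.symm.pow_right _
    have S2 := (k1.mul_right k2).mul_right (((k3.mul_right k4).mul_right k5).mul_right k6)
    have hex3 : a + 2 * b + n + a + a = a + n + 2 * (b + a) := by ring
    calc (x * y) ^ (n + 1) = (x * y) ^ n * (x * y) := pow_succ _ _
      _ = x ^ n * y ^ n * (c ^ a * d ^ b * e ^ (a + 2 * b)) * (x * y) := by rw [ih]
      _ = x ^ n * ((y ^ n * (c ^ a * d ^ b * e ^ (a + 2 * b))) * x) * y := by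
        simp only [mul_assoc]
      _ = x ^ n * (x * ((y ^ n * c ^ n * e ^ a) * (c ^ a * d ^ a * d ^ b * e ^ (a + 2 * b))))
            * y := by rw [← S1.eq]
      _ = x ^ n * x * y ^ n * (((c ^ n * e ^ a) * (c ^ a * d ^ a * d ^ b * e ^ (a + 2 * b)))
            * y) := by simp only [mul_assoc]
      _ = x ^ n * x * y ^ n * (y * ((c ^ n * e ^ n) * e ^ a *
            ((c ^ a * e ^ a) * d ^ a * d ^ b * e ^ (a + 2 * b)))) := by rw [← S2.eq]
      _ = x ^ (n + 1) * y ^ (n + 1) * (c ^ n * e ^ n * e ^ a *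
            (c ^ a * e ^ a * d ^ a * d ^ b * e ^ (a + 2 * b))) := by
        rw [pow_succ, pow_succ]
        simp only [mul_assoc]
      _ = x ^ (n + 1) * y ^ (n + 1) *
            (c ^ (a + n) * d ^ (b + a) * e ^ (a + 2 * b + n + a + a)) := by
        rw [comm3_grp c d e hdc.symm hec.symm hde]
      _ = x ^ (n + 1) * y ^ (n + 1) *
            (c ^ (a + n) * d ^ (b + a) * e ^ (a + n + 2 * (b + a))) := by rw [hex3]

end formula

section class3
variable {R : Type*} [Group R]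

theorem k3_central (hcl : ⁅⁅commutator R, (⊤ : Subgroup R)⁆, (⊤ : Subgroup R)⁆ = ⊥)
    (w : R) (hw : w ∈ ⁅commutator R, (⊤ : Subgroup R)⁆) (v : R) : Commute w v := by
  have h1 : ⁅w, v⁆ ∈ ⁅⁅commutator R, (⊤ : Subgroup R)⁆, (⊤ : Subgroup R)⁆ :=
    Subgroup.commutator_mem_commutator hw (Subgroup.mem_top v)
  rw [hcl, Subgroup.mem_bot] at h1
  exact commutatorElement_eq_one_iff_commute.mp h1

theorem comm_mem_derived (u v : R) : u⁻¹ * v⁻¹ * u * v ∈ commutator R := by
  have h1 : ⁅u⁻¹, v⁻¹⁆ ∈ commutator R := by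
    rw [commutator_def]
    exact Subgroup.commutator_mem_commutator (Subgroup.mem_top _) (Subgroup.mem_top _)
  have h2 : ⁅u⁻¹, v⁻¹⁆ = u⁻¹ * v⁻¹ * u * v := by
    rw [commutatorElement_def, inv_inv, inv_inv]
  rwa [h2] at h1

theorem comm_mem_k3 (u : R) (hu : u ∈ commutator R) (v : R) :
    u⁻¹ * v⁻¹ * u * v ∈ ⁅commutator R, (⊤ : Subgroup R)⁆ := by
  have h1 : ⁅u⁻¹, v⁻¹⁆ ∈ ⁅commutator R, (⊤ : Subgroup R)⁆ :=
    Subgroup.commutator_mem_commutator (inv_mem hu) (Subgroup.mem_top _)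
  have h2 : ⁅u⁻¹, v⁻¹⁆ = u⁻¹ * v⁻¹ * u * v := by
    rw [commutatorElement_def, inv_inv, inv_inv]
  rwa [h2] at h1

/-- the class three collection formula for the explicit commutators -/
theorem collect3_class3 (hcl : ⁅⁅commutator R, (⊤ : Subgroup R)⁆, (⊤ : Subgroup R)⁆ = ⊥)
    (x y : R) (n : ℕ) :
    (x * y) ^ n = x ^ n * y ^ n *
      ((y⁻¹ * x⁻¹ * y * x) ^ (n.choose 2) *
        ((y⁻¹ * x⁻¹ * y * x)⁻¹ * x⁻¹ * (y⁻¹ * x⁻¹ * y * x) * x) ^ (n.choose 3) *
        ((y⁻¹ * x⁻¹ * y * x)⁻¹ * y⁻¹ * (y⁻¹ * x⁻¹ * y * x) * y) ^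
          (n.choose 2 + 2 * n.choose 3)) := by
  have hcm : y⁻¹ * x⁻¹ * y * x ∈ commutator R := comm_mem_derived y x
  have hdm := comm_mem_k3 _ hcm x
  have hem := comm_mem_k3 _ hcm y
  exact collect3 x y _ _ _ (by group) (by group) (by group)
    (k3_central hcl _ hdm x) (k3_central hcl _ hdm y) (k3_central hcl _ hdm _)
    (k3_central hcl _ hem x) (k3_central hcl _ hem y) (k3_central hcl _ hem _)
    (k3_central hcl _ hdm _) n

/-- elements of order dividing `p` are closed under products in class at most three -/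
theorem mul_pow_eq_one_class3 {p : ℕ} (hp : p.Prime) (hp2 : 2 < p)
    (hcl : ⁅⁅commutator R, (⊤ : Subgroup R)⁆, (⊤ : Subgroup R)⁆ = ⊥)
    (hK3p : ∀ w ∈ ⁅commutator R, (⊤ : Subgroup R)⁆, w ^ p = 1 →
      (w ^ (p.choose 3) = 1 ∧ w ^ (p.choose 2 + 2 * p.choose 3) = 1))
    (x y : R) (hx : x ^ p = 1) (hy : y ^ p = 1) : (x * y) ^ p = 1 := by
  have hp2' : p ∣ p.choose 2 := hp.dvd_choose_self (by norm_num) hp2
  have hcm : y⁻¹ * x⁻¹ * y * x ∈ commutator R := comm_mem_derived y x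
  have hdm := comm_mem_k3 _ hcm x
  have hem := comm_mem_k3 _ hcm y
  -- the commutator has order dividing p
  have hcp : (y⁻¹ * x⁻¹ * y * x) ^ p = 1 := by
    have hCm : (x⁻¹ * y * x)⁻¹ * (y⁻¹)⁻¹ * (x⁻¹ * y * x) * y⁻¹ ∈
        ⁅commutator R, (⊤ : Subgroup R)⁆ := by
      have h1 : ⁅y⁻¹, ⁅y, x⁻¹⁆⁆ ∈ ⁅(⊤ : Subgroup R), commutator R⁆ :=
        Subgroup.commutator_mem_commutator (Subgroup.mem_top _) (by
          rw [commutator_def]
          exact Subgroup.commutator_mem_commutator (Subgroup.mem_top _) (Subgroup.mem_top _))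
      rw [Subgroup.commutator_comm] at h1
      have h2 : ⁅y⁻¹, ⁅y, x⁻¹⁆⁆ = (x⁻¹ * y * x)⁻¹ * (y⁻¹)⁻¹ * (x⁻¹ * y * x) * y⁻¹ := by
        simp only [commutatorElement_def]
        group
      rwa [h2] at h1
    have hXp : (y⁻¹) ^ p = 1 := by rw [inv_pow, hy, inv_one]
    have hYp : (x⁻¹ * y * x) ^ p = 1 := by
      have h3 : x⁻¹ * y * x = x⁻¹ * y * (x⁻¹)⁻¹ := by rw [inv_inv]
      rw [h3, conj_pow, hy]
      group
    have hhc : (x⁻¹ * y * x) * y⁻¹ = y⁻¹ * (x⁻¹ * y * x) *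
        ((x⁻¹ * y * x)⁻¹ * (y⁻¹)⁻¹ * (x⁻¹ * y * x) * y⁻¹) := by group
    have hCX := k3_central hcl _ hCm (y⁻¹)
    have hCY := k3_central hcl _ hCm (x⁻¹ * y * x)
    have hCp := comm_pow_eq_one _ _ _ hhc hCX hCY p hXp
    have h4 := collect3 (y⁻¹) (x⁻¹ * y * x) _ 1 1 hhc
      (by rw [mul_one]; exact hCX.eq) (by rw [mul_one]; exact hCY.eq)
      (Commute.one_left _) (Commute.one_left _) (Commute.one_left _)
      (Commute.one_left _) (Commute.one_left _) (Commute.one_left _) (Commute.one_left _) p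
    rw [hXp, hYp, one_pow, one_pow, pow_eq_one_of_dvd' _ p _ hCp hp2'] at h4
    have h5 : y⁻¹ * x⁻¹ * y * x = y⁻¹ * (x⁻¹ * y * x) := by group
    rw [h5, h4]
    group
  have hdp : ((y⁻¹ * x⁻¹ * y * x)⁻¹ * x⁻¹ * (y⁻¹ * x⁻¹ * y * x) * x) ^ p = 1 :=
    comm_pow_eq_one x (y⁻¹ * x⁻¹ * y * x) _ (by group) (k3_central hcl _ hdm x)
      (k3_central hcl _ hdm _) p hx
  have hep : ((y⁻¹ * x⁻¹ * y * x)⁻¹ * y⁻¹ * (y⁻¹ * x⁻¹ * y * x) * y) ^ p = 1 :=
    comm_pow_eq_one y (y⁻¹ * x⁻¹ * y * x) _ (by group) (k3_central hcl _ hem y)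
      (k3_central hcl _ hem _) p hy
  rw [collect3_class3 hcl x y p, hx, hy, pow_eq_one_of_dvd' _ p _ hcp hp2',
    (hK3p _ hdm hdp).1, (hK3p _ hem hep).2]
  group

/-- the `p`-th power map is multiplicative in class at most three when the derived subgroup
has exponent `p` -/
theorem mul_pow_class3 {p : ℕ} (hp : p.Prime) (hp2 : 2 < p)
    (hcl : ⁅⁅commutator R, (⊤ : Subgroup R)⁆, (⊤ : Subgroup R)⁆ = ⊥)
    (hK3p : ∀ w ∈ ⁅commutator R, (⊤ : Subgroup R)⁆, w ^ p = 1 →
      (w ^ (p.choose 3) = 1 ∧ w ^ (p.choose 2 + 2 * p.choose 3) = 1))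
    (hexp : ∀ u ∈ commutator R, u ^ p = 1)
    (x y : R) : (x * y) ^ p = x ^ p * y ^ p := by
  have hp2' : p ∣ p.choose 2 := hp.dvd_choose_self (by norm_num) hp2
  have hcm : y⁻¹ * x⁻¹ * y * x ∈ commutator R := comm_mem_derived y x
  have hdm := comm_mem_k3 _ hcm x
  have hem := comm_mem_k3 _ hcm y
  have hle : ⁅commutator R, (⊤ : Subgroup R)⁆ ≤ commutator R := Subgroup.commutator_le_left _ _
  rw [collect3_class3 hcl x y p, pow_eq_one_of_dvd' _ p _ (hexp _ hcm) hp2',
    (hK3p _ hdm (hexp _ (hle hdm))).1, (hK3p _ hem (hexp _ (hle hem))).2]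
  group

theorem k3p_of_lt {p : ℕ} (hp : p.Prime) (hp3 : 3 < p) :
    ∀ w ∈ ⁅commutator R, (⊤ : Subgroup R)⁆, w ^ p = 1 →
      (w ^ (p.choose 3) = 1 ∧ w ^ (p.choose 2 + 2 * p.choose 3) = 1) := by
  intro w _ hwp
  have h2 : p ∣ p.choose 2 := hp.dvd_choose_self (by norm_num) (by omega)
  have h3 : p ∣ p.choose 3 := hp.dvd_choose_self (by norm_num) hp3
  exact ⟨pow_eq_one_of_dvd' w p _ hwp h3,
    pow_eq_one_of_dvd' w p _ hwp (Dvd.dvd.add h2 (Dvd.dvd.mul_left h3 2))⟩

theorem k3p_of_bot {p : ℕ} (h : ⁅commutator R, (⊤ : Subgroup R)⁆ = ⊥) :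
    ∀ w ∈ ⁅commutator R, (⊤ : Subgroup R)⁆, w ^ p = 1 →
      (w ^ (p.choose 3) = 1 ∧ w ^ (p.choose 2 + 2 * p.choose 3) = 1) := by
  intro w hw _
  rw [h, Subgroup.mem_bot] at hw
  subst hw
  exact ⟨one_pow _, one_pow _⟩

/-- the elements of order dividing `p` form a subgroup -/
theorem closure_pow_eq_one_class3 {p : ℕ} (hp : p.Prime) (hp2 : 2 < p)
    (hcl : ⁅⁅commutator R, (⊤ : Subgroup R)⁆, (⊤ : Subgroup R)⁆ = ⊥)
    (hK3p : ∀ w ∈ ⁅commutator R, (⊤ : Subgroup R)⁆, w ^ p = 1 →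
      (w ^ (p.choose 3) = 1 ∧ w ^ (p.choose 2 + 2 * p.choose 3) = 1))
    (g : R) (hg : g ∈ Subgroup.closure {x : R | x ^ p = 1}) : g ^ p = 1 := by
  induction hg using Subgroup.closure_induction with
  | mem x hx => exact hx
  | one => exact one_pow _
  | mul x y _ _ hx hy => exact mul_pow_eq_one_class3 hp hp2 hcl hK3p x y hx hy
  | inv x _ hx => rw [inv_pow, hx, inv_one]

end class3

end

end Cfsg.Agent.Lib.Helper6
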