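import Mathlib
import Cfsg.Agent.Lib.Helper6.FrobCount

set_option autoImplicit false

universe u

namespace Cfsg.Agent.Lib.Helper6

open Finset

/-- decomposition `x = y z` of an element with `x^(s t) = 1`, `s`, `t` coprime -/
theorem card_pow_eq_one_pairs {G : Type*} [Group G] [Finite G] (s t : ℕ) (hst : s.Coprime t)
    (R Py : G → Prop)
    (hR : ∀ y z : G, y ^ s = 1 → z ^ t = 1 → Commute y z → (R (y * z) ↔ Py y)) :
    Nat.card {x : G // x ^ (s * t) = 1 ∧ R x} =
      Nat.card {w : G × G // (w.1 ^ s = 1 ∧ Py w.1) ∧ Commute w.1 w.2 ∧ w.2 ^ t = 1} := by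
  obtain ⟨e1, he1s, he1t⟩ := Nat.chineseRemainder hst 1 0
  obtain ⟨e2, he2s, he2t⟩ := Nat.chineseRemainder hst 0 1
  have ht1 : t ∣ e1 := (Nat.modEq_zero_iff_dvd).1 he1t
  have hs2 : s ∣ e2 := (Nat.modEq_zero_iff_dvd).1 he2s
  have hsum : e1 + e2 ≡ 1 [MOD s * t] := by
    rw [← Nat.modEq_and_modEq_iff_modEq_mul hst]
    constructor
    · have := Nat.ModEq.add he1s he2s
      simpa using this
    · have := Nat.ModEq.add he1t he2t
      simpa using this
  -- facts for x
  have hx1 : ∀ x : G, x ^ (s * t) = 1 → (x ^ e1) ^ s = 1 := by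
    intro x hx
    obtain ⟨c, rfl⟩ := ht1
    rw [← pow_mul, show t * c * s = s * t * c by ring, pow_mul, hx, one_pow]
  have hx2 : ∀ x : G, x ^ (s * t) = 1 → (x ^ e2) ^ t = 1 := by
    intro x hx
    obtain ⟨c, rfl⟩ := hs2
    rw [← pow_mul, show s * c * t = s * t * c by ring, pow_mul, hx, one_pow]
  have hx3 : ∀ x : G, x ^ (s * t) = 1 → x ^ e1 * x ^ e2 = x := by
    intro x hx
    rw [← pow_add]
    have h1 : x ^ (e1 + e2) = x ^ 1 := by
      rw [pow_eq_pow_iff_modEq]
      exact Nat.ModEq.of_dvd (orderOf_dvd_of_pow_eq_one hx) hsum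
    rw [h1, pow_one]
  -- facts for pairs
  have hw1 : ∀ y z : G, y ^ s = 1 → z ^ t = 1 → Commute y z → (y * z) ^ e1 = y := by
    intro y z hy hz hc
    rw [hc.mul_pow]
    obtain ⟨c, hc'⟩ := ht1
    have h1 : z ^ e1 = 1 := by rw [hc', pow_mul, hz, one_pow]
    have h2 : y ^ e1 = y ^ 1 := by
      rw [pow_eq_pow_iff_modEq]
      exact Nat.ModEq.of_dvd (orderOf_dvd_of_pow_eq_one hy) he1s
    rw [h1, h2, pow_one, mul_one]
  have hw2 : ∀ y z : G, y ^ s = 1 → z ^ t = 1 → Commute y z → (y * z) ^ e2 = z := by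
    intro y z hy hz hc
    rw [hc.mul_pow]
    obtain ⟨c, hc'⟩ := hs2
    have h1 : y ^ e2 = 1 := by rw [hc', pow_mul, hy, one_pow]
    have h2 : z ^ e2 = z ^ 1 := by
      rw [pow_eq_pow_iff_modEq]
      exact Nat.ModEq.of_dvd (orderOf_dvd_of_pow_eq_one hz) he2t
    rw [h1, h2, pow_one, one_mul]
  have hcomm : ∀ x : G, Commute (x ^ e1) (x ^ e2) := fun x =>
    (Commute.refl x).pow_pow e1 e2
  apply Nat.card_congr
  refine
    { toFun := fun x => ⟨(x.1 ^ e1, x.1 ^ e2), ⟨hx1 x.1 x.2.1, ?_⟩, hcomm x.1, hx2 x.1 x.2.1⟩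
      invFun := fun w => ⟨w.1.1 * w.1.2, ?_, ?_⟩
      left_inv := fun x => Subtype.ext (hx3 x.1 x.2.1)
      right_inv := fun w => Subtype.ext (Prod.ext
        (hw1 _ _ w.2.1.1 w.2.2.2 w.2.2.1) (hw2 _ _ w.2.1.1 w.2.2.2 w.2.2.1)) }
  · have h := x.2.2
    rw [← hx3 x.1 x.2.1] at h
    exact (hR _ _ (hx1 x.1 x.2.1) (hx2 x.1 x.2.1) (hcomm x.1)).1 h
  · have hc : Commute w.1.1 w.1.2 := w.2.2.1
    rw [hc.mul_pow, pow_mul, w.2.1.1, one_pow, one_mul, mul_comm s t, pow_mul, w.2.2.2, one_pow]
  · exact (hR _ _ w.2.1.1 w.2.2.2 w.2.2.1).2 w.2.1.2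

theorem frob_part2 (G : Type u) [Group G] [Finite G] (p a k : ℕ) (hp : p.Prime) (hpk : ¬ p ∣ k)
    (hk : k ∣ Nat.card G)
    (ih : ∀ (Q : Type u) [Group Q] [Finite Q], Nat.card Q < Nat.card G → ∀ m : ℕ,
      m ∣ Nat.card Q → m ∣ Nat.card {w : Q // w ^ m = 1}) :
    k ∣ Nat.card {g : G // g ^ (p ^ (a + 1) * k) = 1 ∧ g ^ (p ^ a * k) ≠ 1} := by
  have : Fact p.Prime := ⟨hp⟩
  have hcop : Nat.Coprime (p ^ (a + 1)) k :=
    Nat.Coprime.pow_left _ ((Nat.Prime.coprime_iff_not_dvd hp).2 hpk)
  have hgcd : Nat.gcd (p ^ a * k) (p ^ (a + 1)) = p ^ a := by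
    rw [pow_succ, Nat.gcd_mul_left, ((Nat.Prime.coprime_iff_not_dvd hp).2 hpk).symm, mul_one]
  rw [card_pow_eq_one_pairs (p ^ (a + 1)) k hcop (fun x => x ^ (p ^ a * k) ≠ 1)
    (fun y => y ^ (p ^ a) ≠ 1) ?_]
  · apply dvd_card_pairs k hk (fun y => y ^ p ^ (a + 1) = 1 ∧ y ^ p ^ a ≠ 1)
    · intro g y hy
      rw [conj_pow, conj_pow]
      constructor
      · rw [hy.1]; group
      · intro h
        apply hy.2
        have : y ^ p ^ a = g⁻¹ * (g * y ^ p ^ a * g⁻¹) * g := by group
        rw [this, h]; group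
    · intro y hy
      have hord : orderOf y = p ^ (a + 1) := orderOf_eq_prime_pow hy.2 hy.1
      obtain ⟨H, hH⟩ : ∃ H : Subgroup G, H = Subgroup.centralizer ({y} : Set G) := ⟨_, rfl⟩
      have hyH : y ∈ H := by
        rw [hH, Subgroup.mem_centralizer_singleton_iff]
      obtain ⟨N, hNdef⟩ : ∃ N : Subgroup ↥H, N = Subgroup.zpowers (⟨y, hyH⟩ : ↥H) := ⟨_, rfl⟩
      have hNc : N ≤ Subgroup.center ↥H := by
        rw [hNdef, Subgroup.zpowers_le, Subgroup.mem_center_iff]
        intro h
        have h' : (h : G) ∈ Subgroup.centralizer ({y} : Set G) := by rw [← hH]; exact h.2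
        rw [Subgroup.mem_centralizer_singleton_iff] at h'
        exact Subtype.ext h'
      have hNn : N.Normal := by
        constructor
        intro n hn g
        have := Subgroup.mem_center_iff.1 (hNc hn) g
        rw [this, mul_inv_cancel_right]
        exact hn
      have hNcard : Nat.card N = p ^ (a + 1) := by
        rw [hNdef, Nat.card_zpowers, Subgroup.orderOf_mk, hord]
      have hQ := card_pow_eq_one_quotient N hNc k (by rw [hNcard]; exact hcop)
      have hcong : Nat.card {z : G // Commute y z ∧ z ^ k = 1} = Nat.card {z : ↥H // z ^ k = 1} := by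
        apply Nat.card_congr
        refine
          { toFun := fun z => ⟨⟨z.1, by
              rw [hH, Subgroup.mem_centralizer_singleton_iff]; exact z.2.1.eq.symm⟩,
              Subtype.ext z.2.2⟩
            invFun := fun z => ⟨z.1.1, by
              have h' : (z.1 : G) ∈ Subgroup.centralizer ({y} : Set G) := by rw [← hH]; exact z.1.2
              rw [Subgroup.mem_centralizer_singleton_iff] at h'
              exact h'.symm, congrArg Subtype.val z.2⟩
            left_inv := fun z => rfl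
            right_inv := fun z => rfl }
      rw [hcong, hQ, ← hH]
      have hHcard := Subgroup.card_eq_card_quotient_mul_card_subgroup N
      rw [hNcard] at hHcard
      have hlt : Nat.card (↥H ⧸ N) < Nat.card G := by
        have h1 : Nat.card ↥H ≤ Nat.card G := Subgroup.card_le_card_group H
        have h2 : 2 ≤ p ^ (a + 1) := by
          calc 2 ≤ p := hp.two_le
            _ = p ^ 1 := (pow_one p).symm
            _ ≤ p ^ (a + 1) := Nat.pow_le_pow_right hp.pos (by omega)
        have h3 : 0 < Nat.card (↥H ⧸ N) := Nat.card_pos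
        nlinarith
      have h4 := ih (↥H ⧸ N) hlt (Nat.gcd k (Nat.card (↥H ⧸ N))) (Nat.gcd_dvd_right _ _)
      have h5 : Nat.gcd k (Nat.card ↥H) = Nat.gcd k (Nat.card (↥H ⧸ N)) := by
        rw [hHcard]
        exact Nat.Coprime.gcd_mul_right_cancel_right _ hcop
      rw [h5]
      have h6 : Nat.card {w : ↥H ⧸ N // w ^ Nat.gcd k (Nat.card (↥H ⧸ N)) = 1} =
          Nat.card {w : ↥H ⧸ N // w ^ k = 1} := by
        apply Nat.card_congr
        apply Equiv.subtypeEquivRight
        intro w
        constructor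
        · intro h
          obtain ⟨c, hc⟩ := Nat.gcd_dvd_left k (Nat.card (↥H ⧸ N))
          rw [hc, pow_mul, h, one_pow]
        · intro h
          exact (pow_gcd_eq_one (a := w)).2 ⟨h, pow_card_eq_one'⟩
      rw [← h6]
      exact h4
  · intro y z hy hz hc
    rw [hc.mul_pow]
    have h1 : z ^ (p ^ a * k) = 1 := by rw [mul_comm, pow_mul, hz, one_pow]
    rw [h1, mul_one]
    constructor
    · intro h h'
      apply h
      rw [pow_mul, h', one_pow]
    · intro h h'
      apply h
      have := (pow_gcd_eq_one (a := y)).2 ⟨h', hy⟩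
      rwa [hgcd] at this

/-- Frobenius' theorem -/
theorem frobenius_aux : ∀ N : ℕ, ∀ (G : Type u) [Group G] [Finite G], Nat.card G = N →
    ∀ m : ℕ, m ∣ Nat.card G → m ∣ Nat.card {g : G // g ^ m = 1} := by
  intro N
  induction N using Nat.strong_induction_on with
  | _ N ih =>
  intro G _ _ hN
  have ih' : ∀ (Q : Type u) [Group Q] [Finite Q], Nat.card Q < Nat.card G → ∀ m : ℕ,
      m ∣ Nat.card Q → m ∣ Nat.card {w : Q // w ^ m = 1} := by
    intro Q _ _ hlt m hm
    exact ih (Nat.card Q) (hN ▸ hlt) Q rfl m hm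
  have hpos : 0 < Nat.card G := Nat.card_pos
  have inner : ∀ d : ℕ, ∀ m : ℕ, m ∣ Nat.card G → Nat.card G / m = d →
      m ∣ Nat.card {g : G // g ^ m = 1} := by
    intro d
    induction d using Nat.strong_induction_on with
    | _ d ihd =>
    intro m hm hd
    have hm0 : m ≠ 0 := by
      rintro rfl
      rw [zero_dvd_iff] at hm
      omega
    by_cases hmG : m = Nat.card G
    · have : Nat.card {g : G // g ^ m = 1} = Nat.card G := by
        apply Nat.card_congr
        apply Equiv.subtypeUnivEquiv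
        intro g
        rw [hmG]; exact pow_card_eq_one'
      rw [this]; exact hm
    · obtain ⟨c, hc⟩ := hm
      have hdc : d = c := by
        rw [← hd, hc, Nat.mul_div_cancel_left _ (Nat.pos_of_ne_zero hm0)]
      have hc1 : c ≠ 1 := by
        rintro rfl
        apply hmG; rw [hc, mul_one]
      have hc0 : c ≠ 0 := by
        rintro rfl
        rw [mul_zero] at hc; omega
      obtain ⟨p, hp, hpc⟩ := Nat.exists_prime_and_dvd hc1
      obtain ⟨c', hc'⟩ := hpc
      have hc'0 : c' ≠ 0 := by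
        rintro rfl
        apply hc0; rw [hc', mul_zero]
      have hmp : m * p ∣ Nat.card G := ⟨c', by rw [hc, hc']; ring⟩
      have hdiv : Nat.card G / (m * p) = c' := by
        rw [hc, hc', ← mul_assoc, Nat.mul_div_cancel_left _ (Nat.mul_pos (Nat.pos_of_ne_zero hm0) hp.pos)]
      have hlt : c' < d := by
        rw [hdc, hc']
        have := hp.two_le
        have : 0 < c' := Nat.pos_of_ne_zero hc'0
        nlinarith
      have h1 := ihd c' hlt (m * p) hmp hdiv
      obtain ⟨a, k, hpk, hmk⟩ := Nat.exists_eq_pow_mul_and_not_dvd hm0 p hp.ne_one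
      have hmpk : m * p = p ^ (a + 1) * k := by rw [hmk]; ring
      have hkG : k ∣ Nat.card G := (Dvd.intro_left _ hmk.symm).trans ⟨c, hc⟩
      have hB1 := frob_part1 G p a k hp
      have hB2 := frob_part2 G p a k hp hpk hkG ih'
      have hB : m ∣ Nat.card {g : G // g ^ (p ^ (a + 1) * k) = 1 ∧ g ^ (p ^ a * k) ≠ 1} := by
        rw [hmk]
        exact Nat.Coprime.mul_dvd_of_dvd_of_dvd
          (Nat.Coprime.pow_left _ ((Nat.Prime.coprime_iff_not_dvd hp).2 hpk)) hB1 hB2
      have hsplit : Nat.card {g : G // g ^ (m * p) = 1} =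
          Nat.card {g : G // g ^ m = 1} +
            Nat.card {g : G // g ^ (p ^ (a + 1) * k) = 1 ∧ g ^ (p ^ a * k) ≠ 1} := by
        classical
        have : Fintype G := Fintype.ofFinite G
        rw [Nat.card_eq_fintype_card, Nat.card_eq_fintype_card, Nat.card_eq_fintype_card,
          Fintype.card_subtype, Fintype.card_subtype, Fintype.card_subtype]
        rw [← Finset.card_filter_add_card_filter_not (s := Finset.filter (fun g : G => g ^ (m * p) = 1) Finset.univ)
          (p := fun g : G => g ^ m = 1)]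
        rw [Finset.filter_filter, Finset.filter_filter]
        congr 2
        · ext g
          simp only [Finset.mem_filter, Finset.mem_univ, true_and]
          constructor
          · exact fun h => h.2
          · intro h
            exact ⟨by rw [pow_mul, h, one_pow], h⟩
        · ext g
          simp only [Finset.mem_filter, Finset.mem_univ, true_and]
          rw [hmpk, hmk]
      have h2 : m ∣ Nat.card {g : G // g ^ (m * p) = 1} := (Dvd.intro _ rfl).trans h1
      rw [hsplit] at h2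
      exact (Nat.dvd_add_left hB).1 h2
  intro m hm
  exact inner _ m hm rfl

theorem frobenius_dvd (G : Type u) [Group G] [Finite G] (m : ℕ) (hm : m ∣ Nat.card G) :
    m ∣ Nat.card {g : G // g ^ m = 1} :=
  frobenius_aux _ G rfl m hm

end Cfsg.Agent.Lib.Helper6
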