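import Mathlib
import Cfsg.Agent.Lib.Helper2.GenCoprime2
import Cfsg.Agent.Lib.Lead.NonCyclicAb

set_option autoImplicit false

namespace Cfsg.Agent.Lib.Helper6

open Cfsg.Agent.Lib.Helper2

universe u

/-- Rank two generation for an abelian `p'`-subgroup `V` normalized by commuting elements
`x`, `y` whose `p`-th powers centralize `V`. -/
theorem abelian_gen_rank2Ab {H : Type*} [Group H] [Finite H] (p : ℕ) [hp : Fact p.Prime]
    (V : Subgroup H) (hVc : ∀ u ∈ V, ∀ v ∈ V, u * v = v * u) (hV : ¬ p ∣ Nat.card ↥V)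
    (x y : H) (hx : x ∈ Subgroup.normalizer (V : Set H))
    (hy : y ∈ Subgroup.normalizer (V : Set H)) (hxy : x * y = y * x)
    (hxp : x ^ p ∈ Subgroup.centralizer (V : Set H))
    (hyp : y ^ p ∈ Subgroup.centralizer (V : Set H)) (W : Subgroup H)
    (h1 : V ⊓ Subgroup.centralizer ({x} : Set H) ≤ W)
    (h2 : ∀ i < p, V ⊓ Subgroup.centralizer ({x ^ i * y} : Set H) ≤ W) : V ≤ W := by
  have hcop : (Nat.card ↥V).Coprime p :=
    ((Nat.Prime.coprime_iff_not_dvd hp.out).mpr hV).symm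
  have hmemC : ∀ (e : H) (v : H), e * v * e⁻¹ = v → v ∈ Subgroup.centralizer ({e} : Set H) := by
    intro e v hev
    rw [Subgroup.mem_centralizer_iff]
    intro z hz
    rw [Set.mem_singleton_iff] at hz
    subst hz
    exact mul_inv_eq_iff_eq_mul.mp hev
  have key := abelian_gen_aux (M := ↥V)
    (fun a b => Subtype.ext (hVc a.1 a.2 b.1 b.2)) p hp.out hcop (conjEnd V x hx) (conjEnd V y hy)
    (by
      intro v
      apply Subtype.ext
      show x * (y * v.1 * y⁻¹) * x⁻¹ = y * (x * v.1 * x⁻¹) * y⁻¹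
      have e1 : x * (y * v.1 * y⁻¹) * x⁻¹ = (x * y) * v.1 * (x * y)⁻¹ := by group
      have e2 : y * (x * v.1 * x⁻¹) * y⁻¹ = (y * x) * v.1 * (y * x)⁻¹ := by group
      rw [e1, e2, hxy])
    (by
      intro v
      apply Subtype.ext
      rw [conjEnd_iterate, ← Subgroup.mem_centralizer_iff.mp hxp v.1 v.2, mul_inv_cancel_right])
    (by
      intro v
      apply Subtype.ext
      rw [conjEnd_iterate, ← Subgroup.mem_centralizer_iff.mp hyp v.1 v.2, mul_inv_cancel_right])
    (W.subgroupOf V)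
    (by
      intro v hv
      rw [Subgroup.mem_subgroupOf]
      apply h1
      refine ⟨v.2, hmemC x v.1 ?_⟩
      exact congrArg Subtype.val hv)
    (by
      intro i _ v hv
      rw [Subgroup.mem_subgroupOf]
      apply h2 i ‹_›
      refine ⟨v.2, hmemC _ v.1 ?_⟩
      have h3 := congrArg Subtype.val hv
      rw [conjEnd_iterate] at h3
      have h4 : x ^ i * (y * v.1 * y⁻¹) * (x ^ i)⁻¹ = x ^ i * y * v.1 * (x ^ i * y)⁻¹ := by group
      rw [← h4]
      exact h3)
  intro v hv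
  exact Subgroup.mem_subgroupOf.mp (key ⟨v, hv⟩)

/-- If `A` is abelian and `A/K` is not cyclic, there are a prime `r` and two elements of `A`
which are independent of order `r` modulo `K`. -/
theorem exists_rank2_mod {H : Type*} [Group H] [Finite H] (A K : Subgroup H)
    (hAc : ∀ a ∈ A, ∀ b ∈ A, a * b = b * a)
    (hncyc : ∀ x ∈ A, ¬ A ≤ K ⊔ Subgroup.zpowers x) :
    ∃ r : ℕ, r.Prime ∧ r ∣ Nat.card A ∧ ∃ x ∈ A, ∃ y ∈ A, x ∉ K ∧ x ^ r ∈ K ∧ y ^ r ∈ K ∧
      ∀ i : ℕ, x ^ i * y ∉ K := by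
  classical
  haveI hKn : (K.subgroupOf A).Normal := by
    constructor
    intro n hn g
    have : g * n * g⁻¹ = n := by
      apply Subtype.ext
      show (g : H) * n * (g : H)⁻¹ = n
      rw [hAc g g.2 n n.2, mul_inv_cancel_right]
    rw [this]; exact hn
  have hQc : ∀ a b : ↥A ⧸ K.subgroupOf A, a * b = b * a := by
    intro a b
    obtain ⟨a, rfl⟩ := QuotientGroup.mk'_surjective (K.subgroupOf A) a
    obtain ⟨b, rfl⟩ := QuotientGroup.mk'_surjective (K.subgroupOf A) b
    rw [← map_mul, ← map_mul]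
    congr 1
    exact Subtype.ext (hAc a a.2 b b.2)
  haveI : IsMulCommutative (⊤ : Subgroup (↥A ⧸ K.subgroupOf A)) := ⟨⟨fun a b => Subtype.ext (hQc a b)⟩⟩
  have hmk : ∀ z : ↥A, QuotientGroup.mk' (K.subgroupOf A) z = 1 ↔ (z : H) ∈ K := by
    intro z
    rw [QuotientGroup.mk'_apply, QuotientGroup.eq_one_iff, Subgroup.mem_subgroupOf]
  have hnc : ¬ IsCyclic (⊤ : Subgroup (↥A ⧸ K.subgroupOf A)) := by
    intro hcyc
    obtain ⟨g, hg⟩ := hcyc.exists_generator
    obtain ⟨x₀, hx₀⟩ := QuotientGroup.mk'_surjective (K.subgroupOf A) (g : ↥A ⧸ K.subgroupOf A)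
    apply hncyc (x₀ : H) x₀.2
    intro a ha
    have h1 := hg ⟨QuotientGroup.mk' (K.subgroupOf A) ⟨a, ha⟩, Subgroup.mem_top _⟩
    obtain ⟨k, hk⟩ := Subgroup.mem_zpowers_iff.mp h1
    have h2 : (g : ↥A ⧸ K.subgroupOf A) ^ k = QuotientGroup.mk' (K.subgroupOf A) ⟨a, ha⟩ := by
      have := congrArg Subtype.val hk
      simpa using this
    rw [← hx₀, ← map_zpow] at h2
    have h3 : QuotientGroup.mk' (K.subgroupOf A) ((x₀ ^ k)⁻¹ * ⟨a, ha⟩) = 1 := by
      rw [map_mul, map_inv, h2, inv_mul_cancel]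
    rw [hmk] at h3
    have h4 : a = ((x₀ ^ k : ↥A) : H) * (((x₀ ^ k)⁻¹ * ⟨a, ha⟩ : ↥A) : H) := by
      show a = ((x₀ ^ k : ↥A) : H) * (((x₀ ^ k : ↥A) : H)⁻¹ * a)
      group
    rw [h4]
    apply Subgroup.mul_mem
    · apply Subgroup.mem_sup_right
      rw [Subgroup.coe_zpow]
      exact Subgroup.zpow_mem _ (Subgroup.mem_zpowers _) k
    · exact Subgroup.mem_sup_left h3
  obtain ⟨r, hr, a, _, b, _, ha1, har, hbr, hba⟩ :=
    Cfsg.Agent.Lib.Lead.exists_elem_ab_of_not_cyclic (⊤ : Subgroup (↥A ⧸ K.subgroupOf A)) hnc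
  obtain ⟨x, rfl⟩ := QuotientGroup.mk'_surjective (K.subgroupOf A) a
  obtain ⟨y, rfl⟩ := QuotientGroup.mk'_surjective (K.subgroupOf A) b
  haveI : Fact r.Prime := ⟨hr⟩
  refine ⟨r, hr, ?_, (x : H), x.2, (y : H), y.2, ?_, ?_, ?_, ?_⟩
  · have h1 : orderOf (QuotientGroup.mk' (K.subgroupOf A) x) = r := orderOf_eq_prime har ha1
    have h2 : r ∣ Nat.card (↥A ⧸ K.subgroupOf A) := by
      rw [← h1]; exact orderOf_dvd_natCard _
    exact h2.trans (Subgroup.card_quotient_dvd_card _)
  · intro h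
    exact ha1 ((hmk x).mpr h)
  · have := (hmk (x ^ r)).mp (by rw [map_pow, har])
    simpa using this
  · have := (hmk (y ^ r)).mp (by rw [map_pow, hbr])
    simpa using this
  · intro i h
    apply hba
    have h1 : QuotientGroup.mk' (K.subgroupOf A) (x ^ i * y) = 1 := (hmk (x ^ i * y)).mpr (by simpa using h)
    rw [map_mul, map_pow] at h1
    have h2 : QuotientGroup.mk' (K.subgroupOf A) y = ((QuotientGroup.mk' (K.subgroupOf A) x) ^ i)⁻¹ :=
      eq_inv_of_mul_eq_one_right h1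
    rw [h2]
    exact Subgroup.inv_mem _ (Subgroup.pow_mem _ (Subgroup.mem_zpowers _) i)

/-- Generation by centralizers of subgroups with cyclic quotient: the abelian case, by induction
on the size of the part of `A` acting nontrivially. -/
theorem gen_abelianAb {H : Type*} [Group H] [Finite H]
    (A X : Subgroup H) (hAc : ∀ a ∈ A, ∀ b ∈ A, a * b = b * a)
    (hcop : (Nat.card ↥A).Coprime (Nat.card ↥X)) (W : Subgroup H)
    (hW : ∀ B : Subgroup H, B ≤ A → (∃ x ∈ A, A ≤ B ⊔ Subgroup.zpowers x) →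
      X ⊓ Subgroup.centralizer (B : Set H) ≤ W) :
    ∀ (n : ℕ) (V : Subgroup H),
      Nat.card ↥A - Nat.card ↥(A ⊓ Subgroup.centralizer (V : Set H) : Subgroup H) ≤ n →
      V ≤ X → (∀ u ∈ V, ∀ v ∈ V, u * v = v * u) → A ≤ Subgroup.normalizer (V : Set H) →
      V ≤ W := by
  intro n
  induction n with
  | zero =>
    intro V hn hVX hVc hAV
    have h1 : Nat.card ↥(A ⊓ Subgroup.centralizer (V : Set H) : Subgroup H) ≤ Nat.card ↥A :=
      Subgroup.card_le_of_le inf_le_left
    have h2 : A ⊓ Subgroup.centralizer (V : Set H) = A := by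
      by_contra hne
      have hlt : A ⊓ Subgroup.centralizer (V : Set H) < A := lt_of_le_of_ne inf_le_left hne
      have := card_lt_card_of_lt' hlt
      omega
    have h3 : A ≤ Subgroup.centralizer (V : Set H) := by
      rw [← h2]; exact inf_le_right
    have h4 : V ≤ Subgroup.centralizer (A : Set H) := Subgroup.le_centralizer_iff.mp h3
    exact (le_inf hVX h4).trans (hW A le_rfl ⟨1, A.one_mem, le_sup_left⟩)
  | succ n ih =>
    intro V hn hVX hVc hAV
    by_cases hcyc : ∃ x ∈ A, A ≤ (A ⊓ Subgroup.centralizer (V : Set H)) ⊔ Subgroup.zpowers x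
    · obtain ⟨x, hxA, hc2⟩ := hcyc
      have h4 : V ≤ Subgroup.centralizer
          ((A ⊓ Subgroup.centralizer (V : Set H) : Subgroup H) : Set H) :=
        Subgroup.le_centralizer_iff.mp inf_le_right
      exact (le_inf hVX h4).trans (hW _ inf_le_left ⟨x, hxA, hc2⟩)
    · push Not at hcyc
      obtain ⟨r, hr, hrA, x, hxA, y, hyA, hxK, hxr, hyr, hind⟩ :=
        exists_rank2_mod A (A ⊓ Subgroup.centralizer (V : Set H)) hAc hcyc
      haveI : Fact r.Prime := ⟨hr⟩
      have hV' : ¬ r ∣ Nat.card ↥V := by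
        intro h
        have h1 : r ∣ Nat.card ↥X := h.trans (Subgroup.card_dvd_of_le hVX)
        have h2 := Nat.eq_one_of_dvd_coprimes hcop hrA h1
        exact hr.one_lt.ne' h2
      have hstep : ∀ e ∈ A, e ∉ A ⊓ Subgroup.centralizer (V : Set H) →
          V ⊓ Subgroup.centralizer ({e} : Set H) ≤ W := by
        intro e heA heK
        apply ih (V ⊓ Subgroup.centralizer ({e} : Set H)) _ (inf_le_left.trans hVX)
          (fun u hu v hv => hVc u hu.1 v hv.1)
        · intro a ha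
          apply mem_normalizer_inf _ _ a (hAV ha)
          apply Subgroup.le_normalizer
          rw [mem_centralizer_singleton]
          exact hAc e heA a ha
        · have hle : A ⊓ Subgroup.centralizer (V : Set H) ≤
              A ⊓ Subgroup.centralizer
                ((V ⊓ Subgroup.centralizer ({e} : Set H) : Subgroup H) : Set H) :=
            inf_le_inf_left A (Subgroup.centralizer_le (by
              intro z hz; exact hz.1))
          have hne : A ⊓ Subgroup.centralizer (V : Set H) ≠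
              A ⊓ Subgroup.centralizer
                ((V ⊓ Subgroup.centralizer ({e} : Set H) : Subgroup H) : Set H) := by
            intro heq
            apply heK
            rw [heq]
            have hec : e ∈ Subgroup.centralizer
                ((V ⊓ Subgroup.centralizer ({e} : Set H) : Subgroup H) : Set H) := by
              rw [Subgroup.mem_centralizer_iff]
              intro v hv
              exact ((mem_centralizer_singleton e v).mp hv.2).symm
            exact ⟨heA, hec⟩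
          have hlt := card_lt_card_of_lt' (lt_of_le_of_ne hle hne)
          have hle2 : Nat.card ↥(A ⊓ Subgroup.centralizer
                ((V ⊓ Subgroup.centralizer ({e} : Set H) : Subgroup H) : Set H) : Subgroup H) ≤
              Nat.card ↥A := Subgroup.card_le_of_le inf_le_left
          omega
      apply abelian_gen_rank2Ab r V hVc hV' x y (hAV hxA) (hAV hyA) (hAc x hxA y hyA)
        (Subgroup.mem_inf.mp hxr).2 (Subgroup.mem_inf.mp hyr).2 W
      · exact hstep x hxA hxK
      · intro i _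
        exact hstep (x ^ i * y) (A.mul_mem (A.pow_mem hxA i) hyA) (hind i)

/-- The quotient step of the induction: if `Z ≤ X` is normalized by `A` and `X`, lies in `W`,
and the statement holds for the (smaller) image of `X` modulo `Z`, then `X ≤ W`. -/
theorem gen_quotient_stepAb (q : ℕ) (n : ℕ)
    (ih : ∀ (H : Type u) [Group H] [Finite H] (A X W : Subgroup H), Nat.card ↥X ≤ n →
      (∀ a ∈ A, ∀ b ∈ A, a * b = b * a) → (Nat.card ↥A).Coprime (Nat.card ↥X) →
      IsPGroup q ↥X → A ≤ Subgroup.normalizer (X : Set H) →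
      (∀ B : Subgroup H, B ≤ A → (∃ x ∈ A, A ≤ B ⊔ Subgroup.zpowers x) →
        X ⊓ Subgroup.centralizer (B : Set H) ≤ W) → X ≤ W)
    (H : Type u) [Group H] [Finite H] (A X W Z N : Subgroup H) [hZn : (Z.subgroupOf N).Normal]
    (hn : Nat.card ↥X ≤ n + 1)
    (hAc : ∀ a ∈ A, ∀ b ∈ A, a * b = b * a)
    (hcop : (Nat.card ↥A).Coprime (Nat.card ↥X)) (hXq : IsPGroup q ↥X) (hAX : A ≤ Subgroup.normalizer (X : Set H))
    (hW : ∀ B : Subgroup H, B ≤ A → (∃ x ∈ A, A ≤ B ⊔ Subgroup.zpowers x) →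
        X ⊓ Subgroup.centralizer (B : Set H) ≤ W)
    (hAN : A ≤ N) (hXN : X ≤ N) (hZX : Z ≤ X)
    (hAZ : A ≤ Subgroup.normalizer (Z : Set H)) (hXZ : X ≤ Subgroup.normalizer (Z : Set H))
    (hZW : Z ≤ W) (hZ1 : Z ≠ ⊥) : X ≤ W := by
  have hA'c : ∀ a ∈ (A.subgroupOf N).map (QuotientGroup.mk' (Z.subgroupOf N)),
      ∀ b ∈ (A.subgroupOf N).map (QuotientGroup.mk' (Z.subgroupOf N)), a * b = b * a := by
    rintro _ ⟨a, ha, rfl⟩ _ ⟨b, hb, rfl⟩
    rw [← map_mul, ← map_mul]
    congr 1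
    apply Subtype.ext
    exact hAc a.1 (Subgroup.mem_subgroupOf.mp ha) b.1 (Subgroup.mem_subgroupOf.mp hb)
  have hcardXN : Nat.card ↥(X.subgroupOf N) = Nat.card ↥X :=
    Nat.card_congr (Subgroup.subgroupOfEquivOfLe hXN).toEquiv
  have hcard : Nat.card ↥((X.subgroupOf N).map (QuotientGroup.mk' (Z.subgroupOf N))) ≤ n := by
    have h1 := Cfsg.Agent.Lib.Lead.card_comap_mk' (Z.subgroupOf N)
      ((X.subgroupOf N).map (QuotientGroup.mk' (Z.subgroupOf N)))
    have h2 : ((X.subgroupOf N).map (QuotientGroup.mk' (Z.subgroupOf N))).comap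
        (QuotientGroup.mk' (Z.subgroupOf N)) = X.subgroupOf N := by
      rw [Subgroup.comap_map_eq, QuotientGroup.ker_mk', sup_eq_left]
      intro z hz
      rw [Subgroup.mem_subgroupOf] at hz ⊢
      exact hZX hz
    rw [h2, hcardXN, Nat.card_congr (Subgroup.subgroupOfEquivOfLe (hZX.trans hXN)).toEquiv] at h1
    have h3 : 1 < Nat.card ↥Z := (Subgroup.one_lt_card_iff_ne_bot Z).mpr hZ1
    have h4 : 0 < Nat.card ↥((X.subgroupOf N).map (QuotientGroup.mk' (Z.subgroupOf N))) :=
      Nat.card_pos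
    nlinarith
  have hcardAN : Nat.card ↥(A.subgroupOf N) = Nat.card ↥A :=
    Nat.card_congr (Subgroup.subgroupOfEquivOfLe hAN).toEquiv
  have hX'p : (Nat.card ↥((A.subgroupOf N).map (QuotientGroup.mk' (Z.subgroupOf N)))).Coprime
      (Nat.card ↥((X.subgroupOf N).map (QuotientGroup.mk' (Z.subgroupOf N)))) := by
    have h1 := Subgroup.card_map_dvd (X.subgroupOf N) (QuotientGroup.mk' (Z.subgroupOf N))
    rw [hcardXN] at h1
    have h2 := Subgroup.card_map_dvd (A.subgroupOf N) (QuotientGroup.mk' (Z.subgroupOf N))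
    rw [hcardAN] at h2
    exact Nat.Coprime.coprime_dvd_left h2 (Nat.Coprime.coprime_dvd_right h1 hcop)
  have hX'q : IsPGroup q ↥((X.subgroupOf N).map (QuotientGroup.mk' (Z.subgroupOf N))) :=
    (hXq.comap_of_injective N.subtype N.subtype_injective).map _
  have hA'X' : (A.subgroupOf N).map (QuotientGroup.mk' (Z.subgroupOf N)) ≤
      Subgroup.normalizer (((X.subgroupOf N).map (QuotientGroup.mk' (Z.subgroupOf N)) :
        Subgroup (↥N ⧸ Z.subgroupOf N)) : Set (↥N ⧸ Z.subgroupOf N)) := by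
    have h1 : A.subgroupOf N ≤ Subgroup.normalizer ((X.subgroupOf N : Subgroup ↥N) : Set ↥N) := by
      intro a ha
      rw [Subgroup.mem_normalizer_iff]
      intro x
      rw [Subgroup.mem_subgroupOf, Subgroup.mem_subgroupOf]
      exact Subgroup.mem_normalizer_iff.mp (hAX (Subgroup.mem_subgroupOf.mp ha)) x.1
    exact (Subgroup.map_mono h1).trans (Subgroup.le_normalizer_map _)
  have key := ih (↥N ⧸ Z.subgroupOf N) ((A.subgroupOf N).map (QuotientGroup.mk' (Z.subgroupOf N)))
    ((X.subgroupOf N).map (QuotientGroup.mk' (Z.subgroupOf N)))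
    ((W.subgroupOf N).map (QuotientGroup.mk' (Z.subgroupOf N))) hcard hA'c hX'p hX'q hA'X' ?_
  · intro x hx
    have h1 : QuotientGroup.mk' (Z.subgroupOf N) ⟨x, hXN hx⟩ ∈
        (X.subgroupOf N).map (QuotientGroup.mk' (Z.subgroupOf N)) :=
      Subgroup.mem_map_of_mem _ (Subgroup.mem_subgroupOf.mpr hx)
    obtain ⟨w, hw, hwx⟩ := key h1
    have h2 : w⁻¹ * ⟨x, hXN hx⟩ ∈ Z.subgroupOf N := QuotientGroup.eq.mp hwx
    have h3 : x = (w : H) * ((w⁻¹ * ⟨x, hXN hx⟩ : ↥N) : H) := by
      show x = (w : H) * ((w : H)⁻¹ * x)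
      group
    rw [h3]
    exact W.mul_mem (Subgroup.mem_subgroupOf.mp hw) (hZW (Subgroup.mem_subgroupOf.mp h2))
  · rintro B' hB'A ⟨x', hx'A, hAB'⟩
    obtain ⟨x₀, hx₀A, rfl⟩ := hx'A
    have hmemB : ∀ b : ↥N, b ∈ A.subgroupOf N → QuotientGroup.mk' (Z.subgroupOf N) b ∈ B' →
        (b : H) ∈ (A.subgroupOf N ⊓ B'.comap (QuotientGroup.mk' (Z.subgroupOf N))).map N.subtype :=
      fun b h1 h2 => ⟨b, ⟨h1, h2⟩, rfl⟩
    have hBA : (A.subgroupOf N ⊓ B'.comap (QuotientGroup.mk' (Z.subgroupOf N))).map N.subtype ≤ A := by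
      rintro _ ⟨b, hb, rfl⟩
      exact Subgroup.mem_subgroupOf.mp hb.1
    have hx'n : Subgroup.zpowers (QuotientGroup.mk' (Z.subgroupOf N) x₀) ≤
        Subgroup.normalizer (B' : Set (↥N ⧸ Z.subgroupOf N)) := by
      rw [Subgroup.zpowers_le]
      apply Subgroup.centralizer_le_normalizer
      rw [Subgroup.mem_centralizer_iff]
      intro b' hb'
      exact hA'c b' (hB'A hb') _ (Subgroup.mem_map_of_mem _ hx₀A)
    have hCQ : A ≤ (A.subgroupOf N ⊓ B'.comap (QuotientGroup.mk' (Z.subgroupOf N))).map N.subtype ⊔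
        Subgroup.zpowers (x₀ : H) := by
      intro a ha
      have haN : a ∈ N := hAN ha
      have h1 : QuotientGroup.mk' (Z.subgroupOf N) ⟨a, haN⟩ ∈
          Subgroup.zpowers (QuotientGroup.mk' (Z.subgroupOf N) x₀) ⊔ B' := by
        rw [sup_comm]
        exact hAB' (Subgroup.mem_map_of_mem _ (Subgroup.mem_subgroupOf.mpr ha))
      obtain ⟨c, hc, b', hb', hcb⟩ :=
        Cfsg.Agent.Lib.Helper3.exists_mul_of_mem_sup_of_le_normalizer _ _ hx'n h1
      obtain ⟨k, rfl⟩ := Subgroup.mem_zpowers_iff.mp hc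
      obtain ⟨b₀, hb₀A, rfl⟩ := hB'A hb'
      have hb₀B := hmemB b₀ hb₀A hb'
      have hz : QuotientGroup.mk' (Z.subgroupOf N) ((x₀ ^ k * b₀)⁻¹ * ⟨a, haN⟩) = 1 := by
        rw [map_mul, map_inv, map_mul, map_zpow, hcb]
        group
      have hzB := hmemB ((x₀ ^ k * b₀)⁻¹ * ⟨a, haN⟩)
        (Subgroup.mul_mem _ (Subgroup.inv_mem _ (Subgroup.mul_mem _
          (Subgroup.zpow_mem _ hx₀A k) hb₀A)) (Subgroup.mem_subgroupOf.mpr ha))
        (by rw [hz]; exact B'.one_mem)
      have h5 : a = (x₀ : H) ^ k * (b₀ : H) * (((x₀ ^ k * b₀)⁻¹ * ⟨a, haN⟩ : ↥N) : H) := by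
        show a = (x₀ : H) ^ k * (b₀ : H) * (((x₀ : H) ^ k * (b₀ : H))⁻¹ * a)
        group
      rw [h5]
      exact Subgroup.mul_mem _ (Subgroup.mul_mem _
        (Subgroup.mem_sup_right (Subgroup.zpow_mem _ (Subgroup.mem_zpowers _) k))
        (Subgroup.mem_sup_left hb₀B)) (Subgroup.mem_sup_left hzB)
    rintro t ⟨⟨x₁, hx₁, rfl⟩, ht⟩
    have hx₁X : (x₁ : H) ∈ X := Subgroup.mem_subgroupOf.mp hx₁
    have hBX := hBA.trans hAX
    have hcopB : (Nat.card ↥((A.subgroupOf N ⊓
        B'.comap (QuotientGroup.mk' (Z.subgroupOf N))).map N.subtype)).Coprime (Nat.card ↥X) :=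
      Nat.Coprime.coprime_dvd_left (Subgroup.card_dvd_of_le hBA) hcop
    have hBsolv : Group.IsSolvable ↥((A.subgroupOf N ⊓
        B'.comap (QuotientGroup.mk' (Z.subgroupOf N))).map N.subtype) :=
      Group.isSolvable_of_comm (fun a b => Subtype.ext (hAc a.1 (hBA a.2) b.1 (hBA b.2)))
    have hfix : ∀ b ∈ (A.subgroupOf N ⊓
        B'.comap (QuotientGroup.mk' (Z.subgroupOf N))).map N.subtype,
        b * x₁ * b⁻¹ * (x₁ : H)⁻¹ ∈ Z := by
      rintro _ ⟨b, hb, rfl⟩
      have h1 : QuotientGroup.mk' (Z.subgroupOf N) b * QuotientGroup.mk' (Z.subgroupOf N) x₁ =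
          QuotientGroup.mk' (Z.subgroupOf N) x₁ * QuotientGroup.mk' (Z.subgroupOf N) b :=
        Subgroup.mem_centralizer_iff.mp ht _ hb.2
      have h2 : QuotientGroup.mk' (Z.subgroupOf N) (b * x₁ * b⁻¹ * x₁⁻¹) = 1 := by
        rw [map_mul, map_mul, map_mul, map_inv, map_inv, h1]
        group
      exact Subgroup.mem_subgroupOf.mp ((QuotientGroup.eq_one_iff _).mp h2)
    obtain ⟨c, hc, hcZ⟩ := Cfsg.Agent.Lib.Lead.coprime_coset_fix _ X hBX hcopB (Or.inl hBsolv) Z hZX
      hXZ (hBA.trans hAZ) x₁ hx₁X hfix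
    have hcW : c ∈ W := hW _ hBA ⟨x₀, Subgroup.mem_subgroupOf.mp hx₀A, hCQ⟩ hc
    have hx₁W : (x₁ : H) ∈ W := by
      have h6 : (x₁ : H) = c * ((x₁ : H)⁻¹ * c)⁻¹ := by group
      rw [h6]
      exact W.mul_mem hcW (W.inv_mem (hZW hcZ))
    exact Subgroup.mem_map_of_mem _ (Subgroup.mem_subgroupOf.mpr hx₁W)

/-- Generation by centralizers of subgroups with cyclic quotient: the case of a `q`-group, by
induction on the order (passing to the quotient by the centre). -/
theorem gen_pgroupAb (q : ℕ) [hq : Fact q.Prime] :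
    ∀ (n : ℕ) (H : Type u) [Group H] [Finite H] (A X W : Subgroup H), Nat.card ↥X ≤ n →
      (∀ a ∈ A, ∀ b ∈ A, a * b = b * a) → (Nat.card ↥A).Coprime (Nat.card ↥X) →
      IsPGroup q ↥X → A ≤ Subgroup.normalizer (X : Set H) →
      (∀ B : Subgroup H, B ≤ A → (∃ x ∈ A, A ≤ B ⊔ Subgroup.zpowers x) →
        X ⊓ Subgroup.centralizer (B : Set H) ≤ W) → X ≤ W := by
  intro n
  induction n with
  | zero =>
    intro H _ _ A X W hn _ _ _ _ _
    have := Nat.card_pos (α := ↥X)
    omega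
  | succ n ih =>
    intro H _ _ A X W hn hAc hcop hXq hAX hW
    by_cases hX1 : X = ⊥
    · rw [hX1]; exact bot_le
    have hZX : X ⊓ Subgroup.centralizer (X : Set H) ≤ X := inf_le_left
    have hZc : ∀ u ∈ X ⊓ Subgroup.centralizer (X : Set H),
        ∀ v ∈ X ⊓ Subgroup.centralizer (X : Set H), u * v = v * u :=
      fun u hu v hv => (Subgroup.mem_centralizer_iff.mp hu.2 v hv.1).symm
    have hAZ : A ≤ Subgroup.normalizer
        ((X ⊓ Subgroup.centralizer (X : Set H) : Subgroup H) : Set H) :=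
      fun a ha => mem_normalizer_inf _ _ a (hAX ha)
        (normalizer_le_normalizer_centralizer' X (hAX ha))
    have hXZ : X ≤ Subgroup.normalizer
        ((X ⊓ Subgroup.centralizer (X : Set H) : Subgroup H) : Set H) :=
      fun x hx => mem_normalizer_inf _ _ x (Subgroup.le_normalizer hx)
        (normalizer_le_normalizer_centralizer' X (Subgroup.le_normalizer hx))
    have hZW : X ⊓ Subgroup.centralizer (X : Set H) ≤ W :=
      gen_abelianAb A X hAc hcop W hW _ _ le_rfl hZX hZc hAZ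
    have hZ1 : X ⊓ Subgroup.centralizer (X : Set H) ≠ ⊥ := by
      haveI : Nontrivial ↥X := (Subgroup.nontrivial_iff_ne_bot X).mpr hX1
      haveI := hXq.center_nontrivial
      obtain ⟨z, hz⟩ := exists_ne (1 : ↥(Subgroup.center ↥X))
      intro hbot
      apply hz
      have hzZ : ((z : ↥X) : H) ∈ X ⊓ Subgroup.centralizer (X : Set H) := by
        have hzc : ((z : ↥X) : H) ∈ Subgroup.centralizer (X : Set H) := by
          rw [Subgroup.mem_centralizer_iff]
          intro x hx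
          have := Subgroup.mem_center_iff.mp z.2 ⟨x, hx⟩
          exact congrArg Subtype.val this
        exact ⟨(z : ↥X).2, hzc⟩
      rw [hbot, Subgroup.mem_bot] at hzZ
      apply Subtype.ext
      apply Subtype.ext
      exact hzZ
    -- the quotient
    haveI hZn : ((X ⊓ Subgroup.centralizer (X : Set H)).subgroupOf
        (Subgroup.normalizer ((X ⊓ Subgroup.centralizer (X : Set H) : Subgroup H) : Set H))).Normal :=
      Subgroup.normal_in_normalizer
    exact gen_quotient_stepAb q n ih H A X W (X ⊓ Subgroup.centralizer (X : Set H))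
      (Subgroup.normalizer ((X ⊓ Subgroup.centralizer (X : Set H) : Subgroup H) : Set H))
      hn hAc hcop hXq hAX hW hAZ hXZ hZX hAZ hXZ hZW hZ1

/-- Generation by centralizers of subgroups with cyclic quotient, for an abelian
group `A` acting coprimely on a group `X`: any subgroup `W` containing the centralizers in `X` of
the subgroups `B ≤ A` with `A = B⟨x⟩` contains `X`. -/
theorem gen_coprimeAb {H : Type u} [Group H] [Finite H]
    (A X W : Subgroup H) (hAc : ∀ a ∈ A, ∀ b ∈ A, a * b = b * a)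
    (hcop : (Nat.card ↥A).Coprime (Nat.card ↥X)) (hAX : A ≤ Subgroup.normalizer (X : Set H))
    (hW : ∀ B : Subgroup H, B ≤ A → (∃ x ∈ A, A ≤ B ⊔ Subgroup.zpowers x) →
      X ⊓ Subgroup.centralizer (B : Set H) ≤ W) : X ≤ W := by
  have hAsolv : Group.IsSolvable ↥A :=
    Group.isSolvable_of_comm (fun a b => Subtype.ext (hAc a.1 a.2 b.1 b.2))
  have htop : W.subgroupOf X = ⊤ := by
    rw [← Subgroup.index_eq_one]
    by_contra hne
    obtain ⟨q, hq, hqd⟩ := Nat.exists_prime_and_dvd hne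
    haveI : Fact q.Prime := ⟨hq⟩
    obtain ⟨P, hP⟩ := Cfsg.Agent.Lib.Lead.coprime_exists_invariant_sylow A X hAX hcop
      (Or.inl hAsolv) q
    have hPW : (P : Subgroup ↥X).map X.subtype ≤ W := by
      apply gen_pgroupAb q _ H A _ W le_rfl hAc _ (P.2.map _) hP
      · intro B hBA hCQ
        exact (inf_le_inf_right _ (Subgroup.map_subtype_le _)).trans (hW B hBA hCQ)
      · exact Nat.Coprime.coprime_dvd_right (Subgroup.card_dvd_of_le (Subgroup.map_subtype_le _)) hcop
    have hPle : (P : Subgroup ↥X) ≤ W.subgroupOf X := by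
      intro x hx
      rw [Subgroup.mem_subgroupOf]
      exact hPW ⟨x, hx, rfl⟩
    have h1 := Subgroup.index_dvd_of_le hPle
    exact P.not_dvd_index (hqd.trans h1)
  intro x hx
  have h2 : (⟨x, hx⟩ : ↥X) ∈ W.subgroupOf X := by rw [htop]; trivial
  exact Subgroup.mem_subgroupOf.mp h2

end Cfsg.Agent.Lib.Helper6
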