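import Mathlib
import Cfsg.Agent.Lib.Lead.Hall2
import Cfsg.Agent.Lib.Lead.Glauberman
import Cfsg.Agent.Lib.Helper1.Basic
import Cfsg.Agent.Lib.Helper4.PCore
import Cfsg.Agent.Lib.Helper6.PSolv

set_option autoImplicit false

namespace Cfsg.Agent.Lib.Helper6

open scoped Pointwise

universe u

/-- A nontrivial solvable normal subgroup contains a nontrivial `p`-subgroup that is normal in the
whole group. -/
theorem exists_normal_pSubgroup_le {Γ : Type*} [Group Γ] [Finite Γ] (G₀ : Subgroup Γ)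
    [hn : G₀.Normal] (hsolv : Group.IsSolvable ↥G₀) (hne : G₀ ≠ ⊥) :
    ∃ p : ℕ, p.Prime ∧ ∃ M : Subgroup Γ, M.Normal ∧ M ≤ G₀ ∧ IsPGroup p M ∧ M ≠ ⊥ := by
  haveI := hsolv
  haveI : Nontrivial ↥G₀ := (Subgroup.nontrivial_iff_ne_bot G₀).mpr hne
  obtain ⟨p, hp, P, hPn, hPp, hPne⟩ :=
    Cfsg.Agent.Lib.Lead.exists_normal_pSubgroup_of_solvable ↥G₀
  haveI : Fact p.Prime := ⟨hp⟩
  haveI hc : (Cfsg.pCore p ↥G₀).Characteristic :=
    Cfsg.Agent.Lib.Helper4.pCore_characteristic p ↥G₀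
  refine ⟨p, hp, (Cfsg.pCore p ↥G₀).map G₀.subtype, ConjAct.normal_of_characteristic_of_normal,
    Subgroup.map_subtype_le _, ?_, ?_⟩
  · exact (Cfsg.Agent.Lib.Helper4.pCore_isPGroup p ↥G₀).map _
  · intro h
    apply hPne
    have h1 : P ≤ Cfsg.pCore p ↥G₀ := Cfsg.Agent.Lib.Helper4.le_pCore hPn hPp
    have h2 : Cfsg.pCore p ↥G₀ = ⊥ :=
      (Subgroup.map_eq_bot_iff_of_injective _ G₀.subtype_injective).mp h
    rw [h2] at h1
    exact le_bot_iff.mp h1

/-- Numerical data for the Hall inductions, for a given normal `p`-subgroup. -/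
theorem hall_setup_rel {G : Type*} [Group G] [Finite G] (p : ℕ) (hp : p.Prime) (M : Subgroup G)
    [M.Normal] (hMp : IsPGroup p M) (hMne : M ≠ ⊥) (m n : ℕ) (hG : Nat.card G = m * n)
    (hmn : m.Coprime n) :
    ∃ a : ℕ, Nat.card M = p ^ a ∧ Nat.card (G ⧸ M) < Nat.card G ∧
      ((∃ m' : ℕ, m = p ^ a * m' ∧ Nat.card (G ⧸ M) = m' * n ∧ m'.Coprime n ∧ ¬ p ∣ n) ∨
       (∃ n' : ℕ, n = p ^ a * n' ∧ Nat.card (G ⧸ M) = m * n' ∧ m.Coprime n' ∧
          (p ^ a).Coprime m)) := by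
  haveI : Fact p.Prime := ⟨hp⟩
  obtain ⟨a, ha⟩ := (IsPGroup.iff_card (p := p)).mp hMp
  have hq : Nat.card (G ⧸ M) < Nat.card G := Cfsg.Agent.Lib.Lead.card_quotient_lt M hMne
  have hGM : Nat.card G = Nat.card (G ⧸ M) * p ^ a := by
    rw [← ha]; exact Subgroup.card_eq_card_quotient_mul_card_subgroup M
  have hpa_dvd : p ^ a ∣ m * n := by rw [← hG, hGM]; exact dvd_mul_left _ _
  have hpos : 0 < p ^ a := pow_pos hp.pos a
  refine ⟨a, ha, hq, ?_⟩
  by_cases hpm : p ∣ m
  · left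
    have hpn' : ¬ p ∣ n := by
      intro hpn
      exact hp.ne_one (Nat.eq_one_of_dvd_coprimes hmn hpm hpn)
    have hpn : Nat.Coprime (p ^ a) n :=
      Nat.Coprime.pow_left a ((Nat.Prime.coprime_iff_not_dvd hp).mpr hpn')
    obtain ⟨m', rfl⟩ := hpn.dvd_of_dvd_mul_right hpa_dvd
    refine ⟨m', rfl, ?_, Nat.Coprime.coprime_dvd_left (dvd_mul_left m' (p ^ a)) hmn, hpn'⟩
    have h1 : Nat.card (G ⧸ M) * p ^ a = (m' * n) * p ^ a := by rw [← hGM, hG]; ring
    exact Nat.eq_of_mul_eq_mul_right hpos h1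
  · right
    have hpm' : Nat.Coprime (p ^ a) m :=
      Nat.Coprime.pow_left a ((Nat.Prime.coprime_iff_not_dvd hp).mpr hpm)
    obtain ⟨n', rfl⟩ := hpm'.dvd_of_dvd_mul_left hpa_dvd
    refine ⟨n', rfl, ?_, Nat.Coprime.coprime_dvd_right (dvd_mul_left n' (p ^ a)) hmn, hpm'⟩
    have h1 : Nat.card (G ⧸ M) * p ^ a = (m * n') * p ^ a := by rw [← hGM, hG]; ring
    exact Nat.eq_of_mul_eq_mul_right hpos h1

/-- Hall containment relative to a solvable normal subgroup `G₀` whose index is prime to `n`: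
if `|G| = m n` with `(m, n) = 1`, every subgroup of order prime to `n` lies in a subgroup of
order `m`. -/
theorem hall_le_rel : ∀ (N : ℕ) (G : Type u) [Group G] [Finite G] (G₀ : Subgroup G) (m n : ℕ),
    G₀.Normal → Group.IsSolvable ↥G₀ → (G₀.index).Coprime n →
    Nat.card G = N → Nat.card G = m * n → m.Coprime n → ∀ K : Subgroup G,
    (Nat.card K).Coprime n → ∃ H : Subgroup G, Nat.card H = m ∧ K ≤ H := by
  intro N
  induction N using Nat.strong_induction_on with
  | _ N ih =>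
  intro G _ _ G₀ m n hG₀n hsolv hidx hN hG hmn K hK
  haveI := hG₀n
  by_cases hG₀ : G₀ = ⊥
  · have h1 : n = 1 := by
      rw [hG₀, Subgroup.index_bot, hG] at hidx
      exact Nat.Coprime.eq_one_of_dvd hidx.symm (dvd_mul_left n m)
    refine ⟨⊤, ?_, le_top⟩
    rw [Subgroup.card_top, hG, h1, mul_one]
  obtain ⟨p, hp, M, hMn, hMG₀, hMp, hMne⟩ := exists_normal_pSubgroup_le G₀ hsolv hG₀
  haveI := hMn
  haveI : Fact p.Prime := ⟨hp⟩
  obtain ⟨a, ha, hq, hcase⟩ := hall_setup_rel p hp M hMp hMne m n hG hmn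
  have hG₀bar_n : (G₀.map (QuotientGroup.mk' M)).Normal :=
    Subgroup.Normal.map hG₀n _ (QuotientGroup.mk'_surjective M)
  have hG₀bar_s : Group.IsSolvable ↥(G₀.map (QuotientGroup.mk' M)) := by
    haveI := hsolv
    exact Group.isSolvable_of_surjective (f := (QuotientGroup.mk' M).subgroupMap G₀)
      ((QuotientGroup.mk' M).subgroupMap_surjective G₀)
  have hG₀bar_i : (G₀.map (QuotientGroup.mk' M)).index = G₀.index :=
    Subgroup.index_map_eq G₀ (QuotientGroup.mk'_surjective M)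
      (by rw [QuotientGroup.ker_mk']; exact hMG₀)
  have hMsolv : Group.IsSolvable ↥M := isSolvable_of_card_prime_pow hp M a ha
  rcases hcase with ⟨m', rfl, hcard, hcop, hpn⟩ | ⟨n', rfl, hcard, hcop, hpm'⟩
  · obtain ⟨Hbar, hHbar, hKH⟩ := ih _ (by rw [← hN]; exact hq) (G ⧸ M)
      (G₀.map (QuotientGroup.mk' M)) m' n hG₀bar_n hG₀bar_s (by rw [hG₀bar_i]; exact hidx)
      rfl hcard hcop
      (K.map (QuotientGroup.mk' M)) (Nat.Coprime.coprime_dvd_left (Subgroup.card_map_dvd K _) hK)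
    refine ⟨Hbar.comap (QuotientGroup.mk' M), ?_, Subgroup.map_le_iff_le_comap.mp hKH⟩
    rw [Cfsg.Agent.Lib.Lead.card_comap_mk', hHbar, ha, mul_comm]
  · have hKn' : (Nat.card K).Coprime n' := Nat.Coprime.coprime_dvd_right (dvd_mul_left _ _) hK
    have hKpa : (Nat.card K).Coprime (p ^ a) := Nat.Coprime.coprime_dvd_right (dvd_mul_right _ _) hK
    obtain ⟨Hbar, hHbar, hKH⟩ := ih _ (by rw [← hN]; exact hq) (G ⧸ M)
      (G₀.map (QuotientGroup.mk' M)) m n' hG₀bar_n hG₀bar_s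
      (by rw [hG₀bar_i]; exact Nat.Coprime.coprime_dvd_right (dvd_mul_left _ _) hidx)
      rfl hcard hcop
      (K.map (QuotientGroup.mk' M)) (Nat.Coprime.coprime_dvd_left (Subgroup.card_map_dvd K _) hKn')
    have hLcard : Nat.card (Hbar.comap (QuotientGroup.mk' M)) = m * p ^ a := by
      rw [Cfsg.Agent.Lib.Lead.card_comap_mk', hHbar, ha]
    have hKL : K ≤ Hbar.comap (QuotientGroup.mk' M) := Subgroup.map_le_iff_le_comap.mp hKH
    have hML : M ≤ Hbar.comap (QuotientGroup.mk' M) := by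
      intro x hx
      rw [Subgroup.mem_comap, QuotientGroup.mk'_apply, (QuotientGroup.eq_one_iff x).mpr hx]
      exact Hbar.one_mem
    by_cases hLtop : Hbar.comap (QuotientGroup.mk' M) = ⊤
    · have hGcard : Nat.card G = m * p ^ a := by
        rw [← hLcard, hLtop, Subgroup.card_top]
      have hMidx : M.index = m := by
        have h1 := Subgroup.card_mul_index M
        rw [ha, hGcard, mul_comm] at h1
        exact Nat.eq_of_mul_eq_mul_right (pow_pos hp.pos a) h1
      obtain ⟨H0, hH0⟩ := Subgroup.exists_right_complement'_of_coprime (N := M)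
        (by rw [ha, hMidx]; exact hpm')
      have hH0card : Nat.card H0 = m := by rw [← hMidx]; exact hH0.symm.index_eq_card.symm
      have hA : K ≤ ((K ⊔ M) ⊓ H0) ⊔ M := by
        intro k hk
        have hkmem : k ∈ (M ⊔ H0 : Subgroup G) := by rw [hH0.sup_eq_top]; trivial
        rw [← SetLike.mem_coe, Subgroup.normal_mul, Set.mem_mul] at hkmem
        obtain ⟨x, hx, h, hh, rfl⟩ := hkmem
        refine Subgroup.mul_mem _ (Subgroup.mem_sup_right hx) (Subgroup.mem_sup_left ⟨?_, hh⟩)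
        have h3 : h = x⁻¹ * (x * h) := by group
        rw [h3]
        exact Subgroup.mul_mem _ (Subgroup.mem_sup_right (M.inv_mem hx)) (Subgroup.mem_sup_left hk)
      obtain ⟨x, _, hx2⟩ := Cfsg.Agent.Lib.Lead.exists_conj_le_of_sup_normal K M ((K ⊔ M) ⊓ H0)
        (by rw [ha]; exact hKpa) (Or.inr hMsolv) inf_le_left hA
      refine ⟨MulAut.conj x⁻¹ • H0, by rw [Cfsg.Agent.Lib.Lead.card_conj_smul, hH0card], ?_⟩
      intro k hk
      rw [Cfsg.Agent.Lib.Helper1.mem_conj_smul, inv_inv]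
      apply (hx2 _).2
      rw [Cfsg.Agent.Lib.Helper1.mem_conj_smul]
      have h4 : x⁻¹ * (x * k * x⁻¹) * x = k := by group
      rw [h4]; exact hk
    · have hLlt : Nat.card (Hbar.comap (QuotientGroup.mk' M)) < Nat.card G := by
        by_contra hge
        push Not at hge
        exact hLtop (Subgroup.eq_top_of_card_eq _ (le_antisymm (Subgroup.card_le_card_group _) hge))
      have e1 : Nat.card (K.subgroupOf (Hbar.comap (QuotientGroup.mk' M))) = Nat.card K :=
        Nat.card_congr (Subgroup.subgroupOfEquivOfLe hKL).toEquiv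
      have e2 : Nat.card (M.subgroupOf (Hbar.comap (QuotientGroup.mk' M))) = p ^ a := by
        rw [Nat.card_congr (Subgroup.subgroupOfEquivOfLe hML).toEquiv, ha]
      have e3 : (M.subgroupOf (Hbar.comap (QuotientGroup.mk' M))).index = m := by
        have h1 := Subgroup.card_mul_index (M.subgroupOf (Hbar.comap (QuotientGroup.mk' M)))
        rw [e2, hLcard, mul_comm] at h1
        exact Nat.eq_of_mul_eq_mul_right (pow_pos hp.pos a) h1
      obtain ⟨H', hH'card, hKH'⟩ := ih _ (by rw [← hN]; exact hLlt)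
        (↥(Hbar.comap (QuotientGroup.mk' M))) (M.subgroupOf (Hbar.comap (QuotientGroup.mk' M)))
        m (p ^ a) (Subgroup.Normal.subgroupOf hMn _)
        (isSolvable_of_card_prime_pow hp _ a e2) (by rw [e3]; exact hpm'.symm)
        rfl hLcard hpm'.symm
        (K.subgroupOf (Hbar.comap (QuotientGroup.mk' M))) (by rw [e1]; exact hKpa)
      refine ⟨H'.map (Subgroup.subtype _), ?_, ?_⟩
      · rw [Subgroup.card_map_of_injective (Subgroup.subtype_injective _), hH'card]
      · intro k hk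
        exact ⟨⟨k, hKL hk⟩, hKH' (by rw [Subgroup.mem_subgroupOf]; exact hk), rfl⟩

end Cfsg.Agent.Lib.Helper6
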