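import Mathlib

namespace Cfsg.Agent.Lib.Helper6

open scoped Pointwise

section JordanSets

/-- `D` is a Jordan complement: its pointwise stabilizer is transitive on the complement. -/
def JC (G : Type*) {Ω : Type*} [Group G] [MulAction G Ω] (D : Set Ω) : Prop :=
  ∀ x, x ∉ D → ∀ y, y ∉ D → ∃ g : G, (∀ z ∈ D, g • z = z) ∧ g • x = y

variable {G Ω : Type*} [Group G] [MulAction G Ω]

theorem JC.smul {D : Set Ω} (h : JC G D) (g : G) : JC G (g • D) := by
  intro x hx y hy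
  have hx' : g⁻¹ • x ∉ D := fun hm => hx (Set.mem_smul_set_iff_inv_smul_mem.mpr hm)
  have hy' : g⁻¹ • y ∉ D := fun hm => hy (Set.mem_smul_set_iff_inv_smul_mem.mpr hm)
  obtain ⟨k, hk, hkx⟩ := h _ hx' _ hy'
  refine ⟨g * k * g⁻¹, ?_, ?_⟩
  · intro z hz
    have hz' : g⁻¹ • z ∈ D := Set.mem_smul_set_iff_inv_smul_mem.mp hz
    rw [mul_smul, mul_smul, hk _ hz', smul_inv_smul]
  · rw [mul_smul, mul_smul, hkx, smul_inv_smul]

theorem JC.inter {D₁ D₂ : Set Ω} (h₁ : JC G D₁) (h₂ : JC G D₂) (w : Ω) (hw₁ : w ∉ D₁)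
    (hw₂ : w ∉ D₂) : JC G (D₁ ∩ D₂) := by
  have key : ∀ x, x ∉ D₁ ∩ D₂ → ∃ g : G, (∀ z ∈ D₁ ∩ D₂, g • z = z) ∧ g • x = w := by
    intro x hx
    by_cases hx1 : x ∈ D₁
    · have hx2 : x ∉ D₂ := fun h => hx ⟨hx1, h⟩
      obtain ⟨g, hg, hgx⟩ := h₂ x hx2 w hw₂
      exact ⟨g, fun z hz => hg z hz.2, hgx⟩
    · obtain ⟨g, hg, hgx⟩ := h₁ x hx1 w hw₁
      exact ⟨g, fun z hz => hg z hz.1, hgx⟩
  intro x hx y hy
  obtain ⟨g, hg, hgx⟩ := key x hx
  obtain ⟨k, hk, hky⟩ := key y hy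
  refine ⟨k⁻¹ * g, ?_, ?_⟩
  · intro z hz
    rw [mul_smul, hg z hz, inv_smul_eq_iff, hk z hz]
  · rw [mul_smul, hgx, inv_smul_eq_iff, hky]

theorem three_transitive_of_JC_pair (h2 : MulAction.IsMultiplyPretransitive G Ω 2) {a b : Ω}
    (hab : a ≠ b) (hJ : JC G ({a, b} : Set Ω)) : MulAction.IsMultiplyPretransitive G Ω 3 := by
  rw [MulAction.isMultiplyPretransitive_iff]
  rw [MulAction.is_two_pretransitive_iff] at h2
  have pre : ∀ x : Fin 3 ↪ Ω, ∃ g : G, g • x 0 = a ∧ g • x 1 = b ∧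
      g • x 2 ∉ ({a, b} : Set Ω) := by
    intro x
    have h01 : x 0 ≠ x 1 := fun h => by simpa using x.injective h
    obtain ⟨g₁, h1, h1'⟩ := h2 h01 hab
    refine ⟨g₁, h1, h1', ?_⟩
    intro hm
    rcases hm with hm | hm
    · rw [← h1] at hm
      have := x.injective (smul_left_cancel g₁ hm)
      simp at this
    · rw [Set.mem_singleton_iff, ← h1'] at hm
      have := x.injective (smul_left_cancel g₁ hm)
      simp at this
  intro x y
  obtain ⟨g₁, hx0, hx1, hx2⟩ := pre x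
  obtain ⟨g₂, hy0, hy1, hy2⟩ := pre y
  obtain ⟨k, hk, hku⟩ := hJ _ hx2 _ hy2
  have hka : k • a = a := hk a (by simp)
  have hkb : k • b = b := hk b (by simp)
  refine ⟨g₂⁻¹ * k * g₁, ?_⟩
  ext i
  have h0 : (g₂⁻¹ * k * g₁) • x 0 = y 0 := by
    rw [mul_smul, mul_smul, hx0, hka, inv_smul_eq_iff, hy0]
  have h1 : (g₂⁻¹ * k * g₁) • x 1 = y 1 := by
    rw [mul_smul, mul_smul, hx1, hkb, inv_smul_eq_iff, hy1]
  have h2' : (g₂⁻¹ * k * g₁) • x 2 = y 2 := by
    rw [mul_smul, mul_smul, hku, inv_smul_eq_iff]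
  fin_cases i
  · exact h0
  · exact h1
  · exact h2'

theorem exists_mem_ne_ne {α : Type*} {s : Set α} (hs : 2 < s.ncard) (a b : α) :
    ∃ z ∈ s, z ≠ a ∧ z ≠ b := by
  by_contra h
  push Not at h
  have hsub : s ⊆ {a, b} := by
    intro z hz
    by_cases hza : z = a
    · left; exact hza
    · right; exact h z hz hza
  have h1 := Set.ncard_le_ncard hsub (Set.toFinite _)
  have h2 : ({a, b} : Set α).ncard ≤ 2 := by
    have := Set.ncard_insert_le a ({b} : Set α)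
    rw [Set.ncard_singleton] at this
    exact this
  omega

/-- **Marggraf**: a primitive group with a Jordan set of size `m`, `1 < m ≤ n/2`,
is 3-transitive. -/
theorem marggraf [Finite Ω] (hprim : MulAction.IsPreprimitive G Ω) (Γ : Set Ω)
    (h1 : 1 < Γ.ncard) (h2 : 2 * Γ.ncard ≤ Nat.card Ω) (htr : JC G Γᶜ) :
    MulAction.IsMultiplyPretransitive G Ω 3 := by
  classical
  have h2t : MulAction.IsMultiplyPretransitive G Ω 2 := by
    have hcard : (Γᶜ).ncard = (Nat.card Ω - Γ.ncard - 1) + 1 := by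
      rw [Set.ncard_compl]; omega
    have hlt : (Nat.card Ω - Γ.ncard - 1) + 2 < Nat.card Ω := by omega
    apply hprim.is_two_pretransitive hcard hlt
    constructor
    intro x y
    have hx : (x : Ω) ∉ Γᶜ := x.2
    have hy : (y : Ω) ∉ Γᶜ := y.2
    obtain ⟨g, hg, hgx⟩ := htr _ hx _ hy
    exact ⟨⟨g, (mem_fixingSubgroup_iff G).mpr hg⟩, Subtype.ext hgx⟩
  let 𝒥 : Set (Set Ω) := {D | JC G D ∧ 2 ≤ D.ncard ∧ 2 ≤ Dᶜ.ncard}
  have hmem : Γᶜ ∈ 𝒥 := ⟨htr, by rw [Set.ncard_compl]; omega, by rw [compl_compl]; omega⟩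
  obtain ⟨D₀, hD₀, hmin⟩ := Set.exists_min_image 𝒥 Set.ncard (Set.toFinite 𝒥) ⟨_, hmem⟩
  obtain ⟨hJ₀, hk2, hc2⟩ := hD₀
  have hM : ∀ (g : G) (D : Set Ω), JC G D → ∀ w, w ∉ g • D₀ → w ∉ D →
      2 ≤ (g • D₀ ∩ D).ncard → g • D₀ ⊆ D := by
    intro g D hD w hw1 hw2 hcard
    have hJ : JC G (g • D₀ ∩ D) := (hJ₀.smul g).inter hD w hw1 hw2
    have hmem' : (g • D₀ ∩ D) ∈ 𝒥 := by
      refine ⟨hJ, hcard, ?_⟩
      have hsub : (g • D₀)ᶜ ⊆ (g • D₀ ∩ D)ᶜ := Set.compl_subset_compl.mpr Set.inter_subset_left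
      have := Set.ncard_le_ncard hsub (Set.toFinite _)
      rw [← Set.smul_set_compl, Set.ncard_smul_set] at this
      omega
    have hle := hmin _ hmem'
    have heq : g • D₀ ∩ D = g • D₀ :=
      Set.eq_of_subset_of_ncard_le Set.inter_subset_left (by rw [Set.ncard_smul_set]; exact hle)
    rw [← heq]; exact Set.inter_subset_right
  rcases hk2.eq_or_lt with hk | hk
  · obtain ⟨a, b, hab, hD⟩ := Set.ncard_eq_two.mp hk.symm
    rw [hD] at hJ₀
    exact three_transitive_of_JC_pair h2t hab hJ₀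
  · exfalso
    by_cases hA : ∃ g : G, g • D₀ ≠ D₀ ∧ 2 ≤ (D₀ ∩ g • D₀).ncard
    · obtain ⟨g, hne, hcard⟩ := hA
      have hcov : ∀ g' : G, g' • D₀ ≠ D₀ → 2 ≤ (D₀ ∩ g' • D₀).ncard →
          D₀ ∪ g' • D₀ = Set.univ := by
        intro g' hne' hc'
        by_contra hU
        obtain ⟨w, hw⟩ := (Set.ne_univ_iff_exists_notMem _).mp hU
        have hw1 : w ∉ D₀ := fun h => hw (Or.inl h)
        have hw2 : w ∉ g' • D₀ := fun h => hw (Or.inr h)
        have := hM 1 (g' • D₀) (hJ₀.smul g') w (by rwa [one_smul]) hw2 (by rwa [one_smul])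
        rw [one_smul] at this
        exact hne' (Set.eq_of_subset_of_ncard_le this (by rw [Set.ncard_smul_set])).symm
      have hU := hcov g hne hcard
      have hn : Nat.card Ω + 2 ≤ 2 * D₀.ncard := by
        have := Set.ncard_union_add_ncard_inter D₀ (g • D₀)
        rw [hU, Set.ncard_univ, Set.ncard_smul_set] at this
        omega
      have hblock : MulAction.IsBlock G D₀ᶜ := by
        rw [MulAction.isBlock_iff_smul_eq_or_disjoint]
        intro g'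
        by_cases hg' : g' • D₀ = D₀
        · left; rw [Set.smul_set_compl, hg']
        · right
          have hc' : 2 ≤ (D₀ ∩ g' • D₀).ncard := by
            have := Set.ncard_union_add_ncard_inter D₀ (g' • D₀)
            have hle : (D₀ ∪ g' • D₀).ncard ≤ Nat.card Ω := by
              rw [← Set.ncard_univ]; exact Set.ncard_le_ncard (Set.subset_univ _)
            rw [Set.ncard_smul_set] at this
            omega
          have hU' := hcov g' hg' hc'
          rw [Set.smul_set_compl, Set.disjoint_left]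
          intro z hz1 hz2
          have : z ∈ D₀ ∪ g' • D₀ := by rw [hU']; trivial
          rcases this with h | h
          · exact hz2 h
          · exact hz1 h
      rcases hprim.isTrivialBlock_of_isBlock hblock with hs | ht
      · have := Set.ncard_le_one_iff_subsingleton.mpr hs
        omega
      · have : D₀ = ∅ := Set.compl_univ_iff.mp ht
        rw [this, Set.ncard_empty] at hk2
        omega
    · push Not at hA
      have hL2 : ∀ g₁ g₂ : G, ∀ x y, x ≠ y → x ∈ g₁ • D₀ → y ∈ g₁ • D₀ → x ∈ g₂ • D₀ →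
          y ∈ g₂ • D₀ → g₁ • D₀ = g₂ • D₀ := by
        intro g₁ g₂ x y hxy hx1 hy1 hx2 hy2
        by_contra hne
        have hne' : (g₁⁻¹ * g₂) • D₀ ≠ D₀ := by
          intro h; apply hne; rw [mul_smul, inv_smul_eq_iff] at h; exact h.symm
        have := hA _ hne'
        have h1 : 1 < (D₀ ∩ (g₁⁻¹ * g₂) • D₀).ncard := by
          rw [Set.one_lt_ncard_iff]
          refine ⟨g₁⁻¹ • x, g₁⁻¹ • y, ⟨?_, ?_⟩, ⟨?_, ?_⟩, ?_⟩
          · exact Set.mem_smul_set_iff_inv_smul_mem.mp hx1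
          · rw [mul_smul]; exact Set.smul_mem_smul_set hx2
          · exact Set.mem_smul_set_iff_inv_smul_mem.mp hy1
          · rw [mul_smul]; exact Set.smul_mem_smul_set hy2
          · intro h; exact hxy (smul_left_cancel _ h)
        omega
      obtain ⟨a, b, ha, hb, hab⟩ := (Set.one_lt_ncard_iff).mp (by omega : 1 < D₀.ncard)
      rw [MulAction.is_two_pretransitive_iff] at h2t
      have hL1 : ∀ x y : Ω, x ≠ y → ∃ g : G, x ∈ g • D₀ ∧ y ∈ g • D₀ := by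
        intro x y hxy
        obtain ⟨g, hg1, hg2⟩ := h2t hab hxy
        exact ⟨g, ⟨a, ha, hg1⟩, ⟨b, hb, hg2⟩⟩
      have hLΓ : ∀ g : G, (∃ w ∈ Γ, w ∉ g • D₀) →
          (g • D₀ ∩ Γᶜ).ncard ≤ 1 ∨ g • D₀ ⊆ Γᶜ := by
        rintro g ⟨w, hwΓ, hw⟩
        by_contra hcon
        push Not at hcon
        exact hcon.2 (hM g Γᶜ htr w hw (by simpa using hwΓ) (by omega))
      obtain ⟨x₁, x₂, hx₁, hx₂, hx12⟩ := (Set.one_lt_ncard_iff).mp h1
      have hthird : ∀ (g : G) (d : Ω), d ∉ Γ → d ∈ g • D₀ → x₁ ∈ g • D₀ →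
          (g • D₀ ∩ Γᶜ).ncard ≤ 1 → ∃ z, z ∈ Γ ∧ z ≠ x₁ ∧ z ∈ g • D₀ := by
        intro g d hdΓ hgd hgx hle
        have hL3 : 2 < (g • D₀).ncard := by rw [Set.ncard_smul_set]; exact hk
        obtain ⟨z, hzL, hzd, hzx⟩ := exists_mem_ne_ne hL3 d x₁
        have hzΓ : z ∈ Γ := by
          by_contra hzΓ
          have := (Set.ncard_le_one_iff (Set.toFinite _)).mp hle ⟨hzL, hzΓ⟩ ⟨hgd, hdΓ⟩
          exact hzd this
        exact ⟨z, hzΓ, hzx, hzL⟩
      by_cases hB1 : ∃ g₀ : G, Γ ⊆ g₀ • D₀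
      · obtain ⟨g₀, hg₀⟩ := hB1
        have hne : g₀ • D₀ ≠ Set.univ := by
          intro h
          have h0 : (g₀ • D₀)ᶜ.ncard = 0 := by rw [h]; simp
          rw [← Set.smul_set_compl, Set.ncard_smul_set] at h0
          omega
        obtain ⟨d, hd⟩ := (Set.ne_univ_iff_exists_notMem _).mp hne
        have hdΓ : d ∉ Γ := fun h => hd (hg₀ h)
        have hdx : d ≠ x₁ := fun h => hdΓ (h ▸ hx₁)
        obtain ⟨g, hgd, hgx⟩ := hL1 d x₁ hdx
        have hneL : g • D₀ ≠ g₀ • D₀ := fun h => hd (h ▸ hgd)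
        have hx₂L : x₂ ∉ g • D₀ := by
          intro h
          exact hneL (hL2 g g₀ x₁ x₂ hx12 hgx h (hg₀ hx₁) (hg₀ hx₂))
        rcases hLΓ g ⟨x₂, hx₂, hx₂L⟩ with hle | hsub
        · obtain ⟨z, hzΓ, hzx, hzL⟩ := hthird g d hdΓ hgd hgx hle
          exact hneL (hL2 g g₀ x₁ z (Ne.symm hzx) hgx hzL (hg₀ hx₁) (hg₀ hzΓ))
        · exact (hsub hgx) hx₁
      · push Not at hB1
        have hstep : ∀ d : Ω, d ∉ Γ → ∃ z, z ∈ Γ ∧ z ≠ x₁ ∧ ∃ g : G, x₁ ∈ g • D₀ ∧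
            z ∈ g • D₀ ∧ d ∈ g • D₀ ∧ (g • D₀ ∩ Γᶜ).ncard ≤ 1 := by
          intro d hdΓ
          have hdx : d ≠ x₁ := fun h => hdΓ (h ▸ hx₁)
          obtain ⟨g, hgd, hgx⟩ := hL1 d x₁ hdx
          obtain ⟨w, hwΓ, hw⟩ := Set.not_subset.mp (hB1 g)
          rcases hLΓ g ⟨w, hwΓ, hw⟩ with hle | hsub
          · obtain ⟨z, hzΓ, hzx, hzL⟩ := hthird g d hdΓ hgd hgx hle
            exact ⟨z, hzΓ, hzx, g, hgx, hzL, hgd, hle⟩
          · exact absurd hx₁ (hsub hgx)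
        haveI : Nonempty Ω := ⟨x₁⟩
        choose! f hf using hstep
        have hinj : Set.InjOn f Γᶜ := by
          intro d hd d' hd' hfd
          obtain ⟨hz, hzx, g, hgx, hgz, hgd, hle⟩ := hf d hd
          obtain ⟨hz', hzx', g', hgx', hgz', hgd', hle'⟩ := hf d' hd'
          rw [← hfd] at hgz'
          have hLL : g • D₀ = g' • D₀ := hL2 g g' x₁ (f d) (Ne.symm hzx) hgx hgz hgx' hgz'
          rw [← hLL] at hgd'
          exact (Set.ncard_le_one_iff (Set.toFinite _)).mp hle ⟨hgd, hd⟩ ⟨hgd', hd'⟩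
        have hmaps : ∀ d ∈ Γᶜ, f d ∈ Γ \ {x₁} := fun d hd => ⟨(hf d hd).1, (hf d hd).2.1⟩
        have hle := Set.ncard_le_ncard_of_injOn f hmaps hinj
        have hdiff : (Γ \ {x₁}).ncard = Γ.ncard - 1 := Set.ncard_sdiff_singleton_of_mem hx₁
        rw [Set.ncard_compl] at hle
        omega

end JordanSets

end Cfsg.Agent.Lib.Helper6
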