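import Mathlib
import Cfsg.Agent.Lib.Helper6.PParts

set_option autoImplicit false

namespace Cfsg.Agent.Lib.Helper6

/-- Induction over the primary components of an element: a multiplicatively closed property
holding for all powers of `x` of prime power order holds for `x`. -/
theorem prime_parts_induction {G : Type*} [Group G] [Finite G] (P : G → Prop)
    (hmul : ∀ a b, P a → P b → P (a * b)) (x : G)
    (h : ∀ y ∈ Subgroup.zpowers x, ∀ p k : ℕ, p.Prime → orderOf y = p ^ k → P y) : P x := by
  have key : ∀ (n : ℕ) (x : G), orderOf x = n →
      (∀ y ∈ Subgroup.zpowers x, ∀ p k : ℕ, p.Prime → orderOf y = p ^ k → P y) → P x := by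
    intro n
    induction n using Nat.strong_induction_on with
    | _ n ih =>
      intro x hx h
      by_cases h1 : n = 1
      · exact h x (Subgroup.mem_zpowers x) 2 0 Nat.prime_two (by rw [hx, h1, pow_zero])
      · have hq : n.minFac.Prime := Nat.minFac_prime h1
        haveI : Fact n.minFac.Prime := ⟨hq⟩
        obtain ⟨y, z, hxyz, hcomm, ⟨k, hk⟩, hcop, hy, hz⟩ := exists_p_decomp n.minFac x
        have hzd : orderOf z ∣ n := by
          rw [← hx]
          exact orderOf_dvd_of_mem_zpowers hz
        have hn0 : 0 < n := by
          rw [← hx]
          exact orderOf_pos x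
        have hzne : orderOf z ≠ n := by
          intro he
          rw [he] at hcop
          have h2 : n.minFac ∣ n := Nat.minFac_dvd n
          have h3 : n.minFac ∣ Nat.gcd n n.minFac := Nat.dvd_gcd h2 dvd_rfl
          rw [hcop] at h3
          exact hq.one_lt.ne' (Nat.dvd_one.mp h3)
        have hzlt : orderOf z < n := lt_of_le_of_ne (Nat.le_of_dvd hn0 hzd) hzne
        have hPy : P y := h y hy n.minFac k hq hk
        have hPz : P z := by
          apply ih (orderOf z) hzlt z rfl
          intro w hw p j hp hj
          have hle : Subgroup.zpowers z ≤ Subgroup.zpowers x := by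
            rw [Subgroup.zpowers_le]
            exact hz
          exact h w (hle hw) p j hp hj
        rw [hxyz]
        exact hmul y z hPy hPz
  exact key (orderOf x) x rfl h

end Cfsg.Agent.Lib.Helper6
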