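import Mathlib
import Cfsg.Agent.Lib.Helper6.Extra2
import Cfsg.Agent.S3772
import Cfsg.Agent.S4416
import Cfsg.Agent.Lib.Helper4.Frattini
import Cfsg.Agent.Lib.Lead.Class2

set_option autoImplicit false

namespace Cfsg.Agent.Lib.Helper6.Rank2

open Matrix Cfsg.Agent.S3799 Cfsg.Agent.S0098 Cfsg.Agent.Lib.Helper6.Extra2 Cfsg.Agent.S3772
open scoped BigOperators

section
variable {E : Type*} [Group E]

noncomputable def kap (x a : E) : ℤ := by
  classical exact if x * a = a * x then 1 else -1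

theorem kap_comm (x a : E) : kap x a = kap a x := by
  classical
  unfold kap
  by_cases h : x * a = a * x
  · rw [if_pos h, if_pos h.symm]
  · rw [if_neg h, if_neg (fun h' => h h'.symm)]

theorem kap_pos {x a : E} (h : x * a = a * x) : kap x a = 1 := by
  classical
  unfold kap; rw [if_pos h]

theorem kap_neg {x a : E} (h : x * a ≠ a * x) : kap x a = -1 := by
  classical
  unfold kap; rw [if_neg h]

theorem dich {z : E} (A : Amb2 E 2 z) (hz1 : z ≠ 1) (u v : E) :
    u * v = v * u ∨ (u * v = v * u * z ∧ u * v ≠ v * u) := by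
  rcases comm2 A u v with h | h
  · exact Or.inl h
  · refine Or.inr ⟨h, fun h' => hz1 ?_⟩
    rw [h'] at h
    have h2 : v * u * 1 = v * u * z := by rw [mul_one]; exact h
    exact (mul_left_cancel h2).symm

theorem kap_mul {z : E} (A : Amb2 E 2 z) (hz1 : z ≠ 1) (x a b : E) :
    kap x (a * b) = kap x a * kap x b := by
  have hzz : z * z = 1 := by have := A.hzp; rwa [pow_two] at this
  have hne : ∀ u v : E, u = v * z → u ≠ v := by
    intro u v h h'
    rw [h'] at h
    have h2 : v * 1 = v * z := by rw [mul_one]; exact h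
    exact hz1 (mul_left_cancel h2).symm
  rcases dich A hz1 x a with ha | ⟨ha, ha'⟩ <;> rcases dich A hz1 x b with hb | ⟨hb, hb'⟩
  · have h : x * (a * b) = a * b * x := by rw [← mul_assoc, ha, mul_assoc, hb, mul_assoc]
    rw [kap_pos h, kap_pos ha, kap_pos hb]; norm_num
  · have h : x * (a * b) = a * b * x * z := by
      rw [← mul_assoc, ha, mul_assoc, hb]; simp only [mul_assoc]
    rw [kap_neg (hne _ _ h), kap_pos ha, kap_neg hb']; norm_num
  · have h : x * (a * b) = a * b * x * z := by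
      calc x * (a * b) = (x * a) * b := (mul_assoc _ _ _).symm
        _ = a * x * z * b := by rw [ha]
        _ = a * x * (z * b) := by simp only [mul_assoc]
        _ = a * x * (b * z) := by rw [← A.hz b]
        _ = a * (x * b) * z := by simp only [mul_assoc]
        _ = a * (b * x) * z := by rw [hb]
        _ = a * b * x * z := by simp only [mul_assoc]
    rw [kap_neg (hne _ _ h), kap_neg ha', kap_pos hb]; norm_num
  · have h : x * (a * b) = a * b * x := by
      calc x * (a * b) = (x * a) * b := (mul_assoc _ _ _).symm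
        _ = a * x * z * b := by rw [ha]
        _ = a * x * (z * b) := by simp only [mul_assoc]
        _ = a * x * (b * z) := by rw [← A.hz b]
        _ = a * (x * b) * z := by simp only [mul_assoc]
        _ = a * (b * x * z) * z := by rw [hb]
        _ = a * b * x * (z * z) := by simp only [mul_assoc]
        _ = a * b * x := by rw [hzz, mul_one]
    rw [kap_pos h, kap_neg ha', kap_neg hb']; norm_num

theorem chi_mul {z : E} (A : Amb2 E 2 z) (hz1 : z ≠ 1) (hsq : ∀ e : E, e ^ 2 = 1 ∨ e ^ 2 = z)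
    (x a : E) : sg ((x * a) ^ 2) = sg (x ^ 2) * sg (a ^ 2) * kap x a := by
  have hzz : z * z = 1 := by have := A.hzp; rwa [pow_two] at this
  rcases dich A hz1 x a with ha | ⟨ha, ha'⟩
  · have e : (x * a) ^ 2 = x ^ 2 * a ^ 2 := by
      calc (x * a) ^ 2 = x * (a * x) * a := by rw [pow_two]; simp only [mul_assoc]
        _ = x * (x * a) * a := by rw [ha]
        _ = x ^ 2 * a ^ 2 := by rw [pow_two, pow_two]; simp only [mul_assoc]
    rw [e, sg_mul hz1 hzz (hsq x) (hsq a), kap_pos ha, mul_one]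
  · have hax : a * x = x * a * z := by
      rw [ha]; simp only [mul_assoc]; rw [hzz, mul_one]
    have e : (x * a) ^ 2 = x ^ 2 * a ^ 2 * z := by
      calc (x * a) ^ 2 = x * (a * x) * a := by rw [pow_two]; simp only [mul_assoc]
        _ = x * (x * a * z) * a := by rw [hax]
        _ = x * x * a * (z * a) := by simp only [mul_assoc]
        _ = x * x * a * (a * z) := by rw [← A.hz a]
        _ = x ^ 2 * a ^ 2 * z := by rw [pow_two, pow_two]; simp only [mul_assoc]
    have hx2 : x ^ 2 * a ^ 2 = 1 ∨ x ^ 2 * a ^ 2 = z := by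
      rcases hsq x with h1 | h1 <;> rcases hsq a with h2 | h2 <;> rw [h1, h2]
      · left; exact mul_one 1
      · right; exact one_mul z
      · right; exact mul_one z
      · left; exact hzz
    rw [e, sg_mul hz1 hzz hx2 (Or.inr rfl), sg_mul hz1 hzz (hsq x) (hsq a), kap_neg ha', sg_ne hz1]

theorem key [Finite E] (hE : Cfsg.IsExtraspecial 2 E) (A : Subgroup E)
    (hA : ∀ a ∈ A, ∀ b ∈ A, a * b = b * a) :
    Nat.card A * Nat.card A ≤ 2 * Nat.card E ∧
    ((∀ a ∈ A, a ^ 2 = 1) → Nat.card A * Nat.card A = 2 * Nat.card E →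
       2 * (Nat.card {x : E // x ^ 2 = 1} : ℤ) - Nat.card E = Nat.card A) := by
  classical
  haveI : Fact (Nat.Prime 2) := ⟨Nat.prime_two⟩
  haveI := Fintype.ofFinite E
  haveI : Fintype A := Fintype.ofFinite A
  obtain ⟨z, A2, hsq⟩ := amb2_of_extraspecial hE
  have hz1 : z ≠ 1 := by
    intro h
    have := A2.hzo
    rw [h, orderOf_one] at this
    omega
  have S1 : ∀ a : E, ∑ x : E, kap x a =
      if a ∈ Subgroup.center E then (Fintype.card E : ℤ) else 0 := by
    intro a
    split_ifs with ha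
    · rw [Subgroup.mem_center_iff] at ha
      rw [Finset.sum_congr rfl (fun x _ => kap_pos (ha x))]
      simp
    · rw [Subgroup.mem_center_iff] at ha
      push_neg at ha
      obtain ⟨g, hg⟩ := ha
      have hre : ∑ x : E, kap x a = ∑ x : E, kap (g * x) a :=
        (Equiv.sum_comp (Equiv.mulLeft g) (fun x => kap x a)).symm
      have h2 : ∀ x : E, kap (g * x) a = - kap x a := by
        intro x
        rw [kap_comm, kap_mul A2 hz1, kap_comm a g, kap_neg hg, kap_comm a x]; ring
      rw [Finset.sum_congr rfl (fun x _ => h2 x), Finset.sum_neg_distrib] at hre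
      linarith
  have S2 : ∀ x : E, ∑ a : A, kap x (a : E) =
      if (∀ a ∈ A, x * a = a * x) then (Fintype.card A : ℤ) else 0 := by
    intro x
    split_ifs with hx
    · rw [Finset.sum_congr rfl (fun a _ => kap_pos (hx a.1 a.2))]
      simp
    · push_neg at hx
      obtain ⟨b, hbA, hb⟩ := hx
      have hre : ∑ a : A, kap x (a : E) = ∑ a : A, kap x ((⟨b, hbA⟩ * a : A) : E) :=
        (Equiv.sum_comp (Equiv.mulLeft (⟨b, hbA⟩ : A)) (fun a : A => kap x (a : E))).symm
      have h2 : ∀ a : A, kap x ((⟨b, hbA⟩ * a : A) : E) = - kap x (a : E) := by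
        intro a
        show kap x (b * (a : E)) = - kap x (a : E)
        rw [kap_mul A2 hz1, kap_neg hb]; ring
      rw [Finset.sum_congr rfl (fun a _ => h2 a), Finset.sum_neg_distrib] at hre
      linarith
  have D : (Fintype.card A : ℤ) * (Nat.card {x : E // ∀ a ∈ A, x * a = a * x} : ℤ) =
      (Fintype.card E : ℤ) * (Nat.card {a : A // (a : E) ∈ Subgroup.center E} : ℤ) := by
    have h1 : ∑ x : E, ∑ a : A, kap x (a : E) =
        (Fintype.card A : ℤ) * (Nat.card {x : E // ∀ a ∈ A, x * a = a * x} : ℤ) := by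
      have e1 : ∀ x : E, (if (∀ a ∈ A, x * a = a * x) then (Fintype.card A : ℤ) else 0) =
          (Fintype.card A : ℤ) * (if (∀ a ∈ A, x * a = a * x) then 1 else 0) := by
        intro x; split_ifs <;> simp
      rw [Finset.sum_congr rfl (fun x _ => S2 x), Finset.sum_congr rfl (fun x _ => e1 x),
        ← Finset.mul_sum, Finset.sum_boole, Nat.card_eq_fintype_card,
        Fintype.card_subtype (fun x : E => ∀ a ∈ A, x * a = a * x)]
    have h2 : ∑ x : E, ∑ a : A, kap x (a : E) =
        (Fintype.card E : ℤ) * (Nat.card {a : A // (a : E) ∈ Subgroup.center E} : ℤ) := by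
      rw [Finset.sum_comm]
      have e2 : ∀ a : A, (if (a : E) ∈ Subgroup.center E then (Fintype.card E : ℤ) else 0) =
          (Fintype.card E : ℤ) * (if (a : E) ∈ Subgroup.center E then 1 else 0) := by
        intro a; split_ifs <;> simp
      rw [Finset.sum_congr rfl (fun (a : A) _ => S1 (a : E)),
        Finset.sum_congr rfl (fun a _ => e2 a),
        ← Finset.mul_sum, Finset.sum_boole, Nat.card_eq_fintype_card,
        Fintype.card_subtype (fun a : A => (a : E) ∈ Subgroup.center E)]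
    rw [← h1, h2]
  have hZle : Nat.card {a : A // (a : E) ∈ Subgroup.center E} ≤ 2 := by
    have hinj : Function.Injective (fun a : {a : A // (a : E) ∈ Subgroup.center E} =>
        (⟨(a.1 : E), a.2⟩ : Subgroup.center E)) := by
      intro a b h
      apply Subtype.ext; apply Subtype.ext
      simp only [Subtype.mk.injEq] at h
      exact h
    have := Nat.card_le_card_of_injective _ hinj
    rw [hE.2] at this
    exact this
  have hinjA : Function.Injective (fun a : A =>
      (⟨(a : E), fun b hb => hA a.1 a.2 b hb⟩ : {x : E // ∀ a ∈ A, x * a = a * x})) := by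
    intro a b h
    apply Subtype.ext
    simp only [Subtype.mk.injEq] at h
    exact h
  have hCge : Nat.card A ≤ Nat.card {x : E // ∀ a ∈ A, x * a = a * x} :=
    Nat.card_le_card_of_injective _ hinjA
  have hcA : (Fintype.card A : ℤ) = Nat.card A := by rw [Nat.card_eq_fintype_card]
  have hcE : (Fintype.card E : ℤ) = Nat.card E := by rw [Nat.card_eq_fintype_card]
  rw [hcA, hcE] at D
  have D' : Nat.card A * Nat.card {x : E // ∀ a ∈ A, x * a = a * x} =
      Nat.card E * Nat.card {a : A // (a : E) ∈ Subgroup.center E} := by exact_mod_cast D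
  have hApos : 0 < Nat.card A := Nat.card_pos
  constructor
  · calc Nat.card A * Nat.card A
        ≤ Nat.card A * Nat.card {x : E // ∀ a ∈ A, x * a = a * x} := Nat.mul_le_mul_left _ hCge
      _ = Nat.card E * Nat.card {a : A // (a : E) ∈ Subgroup.center E} := D'
      _ ≤ Nat.card E * 2 := Nat.mul_le_mul_left _ hZle
      _ = 2 * Nat.card E := mul_comm _ _
  · intro hA2 hcard
    have hCeq : Nat.card {x : E // ∀ a ∈ A, x * a = a * x} = Nat.card A := by
      have h1 : Nat.card A * Nat.card {x : E // ∀ a ∈ A, x * a = a * x} ≤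
          Nat.card A * Nat.card A := by
        rw [D', hcard, mul_comm]; exact Nat.mul_le_mul_right _ hZle
      have h2 := Nat.le_of_mul_le_mul_left h1 hApos
      omega
    have hCA : ∀ x : E, (∀ a ∈ A, x * a = a * x) → x ∈ A := by
      intro x hx
      have hbij := hinjA.bijective_of_nat_card_le (le_of_eq hCeq)
      obtain ⟨a, ha⟩ := hbij.2 ⟨x, hx⟩
      have : (a : E) = x := congrArg Subtype.val ha
      rw [← this]; exact a.2
    set χ : E → ℤ := fun x => sg (x ^ 2) with hχ
    have T1 : ∑ x : E, ∑ a : A, χ (x * (a : E)) = (Fintype.card A : ℤ) * ∑ x : E, χ x := by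
      rw [Finset.sum_comm]
      have : ∀ a : A, ∑ x : E, χ (x * (a : E)) = ∑ x : E, χ x := fun a =>
        Equiv.sum_comp (Equiv.mulRight (a : E)) χ
      rw [Finset.sum_congr rfl (fun a _ => this a)]
      simp
    have T2 : ∑ x : E, ∑ a : A, χ (x * (a : E)) = (Fintype.card A : ℤ) * (Nat.card A : ℤ) := by
      have e1 : ∀ x : E, ∑ a : A, χ (x * (a : E)) =
          if (∀ a ∈ A, x * a = a * x) then (Fintype.card A : ℤ) else 0 := by
        intro x
        have e2 : ∀ a : A, χ (x * (a : E)) = χ x * kap x (a : E) := by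
          intro a
          show sg ((x * (a : E)) ^ 2) = sg (x ^ 2) * kap x (a : E)
          rw [chi_mul A2 hz1 hsq, hA2 a.1 a.2, sg_one, mul_one]
        rw [Finset.sum_congr rfl (fun a _ => e2 a), ← Finset.mul_sum, S2 x]
        split_ifs with hx
        · have : χ x = 1 := by
            show sg (x ^ 2) = 1
            rw [hA2 x (hCA x hx), sg_one]
          rw [this, one_mul]
        · rw [mul_zero]
      have e3 : ∀ x : E, (if (∀ a ∈ A, x * a = a * x) then (Fintype.card A : ℤ) else 0) =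
          (Fintype.card A : ℤ) * (if (∀ a ∈ A, x * a = a * x) then 1 else 0) := by
        intro x; split_ifs <;> simp
      rw [Finset.sum_congr rfl (fun x _ => e1 x), Finset.sum_congr rfl (fun x _ => e3 x),
        ← Finset.mul_sum, Finset.sum_boole, ← hCeq, Nat.card_eq_fintype_card,
        Fintype.card_subtype (fun x : E => ∀ a ∈ A, x * a = a * x)]
    have hS : ∑ x : E, χ x = 2 * (Nat.card {x : E // x ^ 2 = 1} : ℤ) - Nat.card E := by
      have h1 : ∀ x : E, χ x = 2 * (if x ^ 2 = 1 then (1 : ℤ) else 0) - 1 := by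
        intro x
        show sg (x ^ 2) = _
        by_cases h : x ^ 2 = 1
        · rw [if_pos h, h, sg_one]; norm_num
        · rw [sg_ne h, if_neg h]; norm_num
      rw [Finset.sum_congr rfl (fun x _ => h1 x), Finset.sum_sub_distrib, ← Finset.mul_sum,
        Finset.sum_boole]
      simp only [Finset.sum_const, Finset.card_univ, nsmul_eq_mul, mul_one]
      rw [Nat.card_eq_fintype_card, Nat.card_eq_fintype_card, Fintype.card_subtype]
    have hApos' : (0 : ℤ) < (Fintype.card A : ℤ) := by rw [hcA]; exact_mod_cast hApos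
    have hfin : ∑ x : E, χ x = (Nat.card A : ℤ) :=
      mul_left_cancel₀ (ne_of_gt hApos') (T1.symm.trans T2)
    rw [← hS, hfin]

theorem le_of_sq_le {a k : ℕ} (h : a * a ≤ 2 ^ (2 * k + 2)) : a ≤ 2 ^ (k + 1) := by
  by_contra hlt
  push_neg at hlt
  have h1 : 2 ^ (k + 1) * 2 ^ (k + 1) < a * a := Nat.mul_self_lt_mul_self hlt
  have h2 : 2 ^ (k + 1) * 2 ^ (k + 1) = 2 ^ (2 * k + 2) := by rw [← pow_add]; congr 1; omega
  omega

theorem comm_of_isMulComm (A : Subgroup E) (hA : IsMulCommutative A) :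
    ∀ a ∈ A, ∀ b ∈ A, a * b = b * a := by
  intro a ha b hb
  exact congrArg Subtype.val (hA.is_comm.comm ⟨a, ha⟩ ⟨b, hb⟩)

theorem rank_le_succ [Finite E] (hE : Cfsg.IsExtraspecial 2 E) (m : ℕ)
    (hcard : Nat.card E = 2 ^ (2 * m + 1)) : Cfsg.PRankLE 2 (m + 1) E := by
  intro A hA _
  have h1 := (key hE A (comm_of_isMulComm A hA)).1
  rw [hcard] at h1
  apply le_of_sq_le
  calc Nat.card A * Nat.card A ≤ 2 * 2 ^ (2 * m + 1) := h1
    _ = 2 ^ (2 * m + 2) := by rw [pow_succ 2 (2 * m + 1)]; ring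

theorem rank_le_minus [Finite E] (hE : Cfsg.IsExtraspecial 2 E) (m : ℕ)
    (hcard : Nat.card E = 2 ^ (2 * m + 1))
    (hj : 2 * (Nat.card {x : E // x ^ 2 = 1} : ℤ) - Nat.card E < 0) : Cfsg.PRankLE 2 m E := by
  haveI : Fact (Nat.Prime 2) := ⟨Nat.prime_two⟩
  intro A hA hA2
  have hk := key hE A (comm_of_isMulComm A hA)
  obtain ⟨t, ht⟩ := IsPGroup.iff_card.mp (hE.1.1.to_subgroup A)
  have h1 := hk.1
  rw [hcard, ht] at h1
  have h2 : 2 ^ (t + t) ≤ 2 ^ (2 * m + 2) := by
    calc 2 ^ (t + t) = 2 ^ t * 2 ^ t := pow_add 2 t t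
      _ ≤ 2 * 2 ^ (2 * m + 1) := h1
      _ = 2 ^ (2 * m + 2) := by rw [pow_succ 2 (2 * m + 1)]; ring
  have h3 : t + t ≤ 2 * m + 2 := (Nat.pow_le_pow_iff_right (by norm_num)).mp h2
  by_cases htm : t ≤ m
  · rw [ht]; exact Nat.pow_le_pow_right (by norm_num) htm
  · exfalso
    have htm' : t = m + 1 := by omega
    have h4 : Nat.card A * Nat.card A = 2 * Nat.card E := by
      rw [ht, hcard, htm', ← pow_add]
      have : m + 1 + (m + 1) = (2 * m + 1) + 1 := by ring
      rw [this, pow_succ]; ring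
    have h5 := hk.2 hA2 h4
    rw [h5] at hj
    have : (0 : ℤ) ≤ Nat.card A := by positivity
    linarith

theorem not_rank_of_sub {M : Type*} [Group M] (e : M ≃* E) (B : Subgroup M)
    (hB : ∀ x ∈ B, ∀ y ∈ B, x * y = y * x) (hB2 : ∀ x ∈ B, x ^ 2 = 1) (k : ℕ)
    (hk : 2 ^ k < Nat.card B) : ¬ Cfsg.PRankLE 2 k E := by
  intro h
  have h1 := h (B.map e.toMonoidHom) ⟨⟨fun a b => by
      obtain ⟨x, hx, hxa⟩ := a.2
      obtain ⟨y, hy, hyb⟩ := b.2
      apply Subtype.ext
      show (a : E) * (b : E) = (b : E) * (a : E)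
      rw [← hxa, ← hyb, ← map_mul, ← map_mul, hB x hx y hy]⟩⟩ (by
      rintro _ ⟨x, hx, rfl⟩
      rw [← map_pow, hB2 x hx, map_one])
  rw [Subgroup.card_map_of_injective e.injective] at h1
  omega

end

/-! ### large elementary abelian subgroups of the models -/

def heisB (n : ℕ) : Subgroup (Heis n 2) where
  carrier := {x | x.a = 0}
  mul_mem' := by
    intro x y hx hy
    have hx' : x.a = 0 := hx
    have hy' : y.a = 0 := hy
    show (x * y).a = 0
    rw [Heis.mul_a, hx', hy', add_zero]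
  one_mem' := rfl
  inv_mem' := by
    intro x hx
    have hx' : x.a = 0 := hx
    show (x⁻¹).a = 0
    rw [Heis.inv_a, hx', neg_zero]

theorem heisB_comm (n : ℕ) : ∀ x ∈ heisB n, ∀ y ∈ heisB n, x * y = y * x := by
  intro x hx y hy
  have hx' : x.a = 0 := hx
  have hy' : y.a = 0 := hy
  refine Cfsg.Agent.S3799.Heis.ext ?_ ?_ ?_
  · rw [Heis.mul_a, Heis.mul_a, add_comm]
  · rw [Heis.mul_b, Heis.mul_b, add_comm]
  · rw [Heis.mul_c, Heis.mul_c, hx', hy', zero_dotProduct, zero_dotProduct, add_comm x.c]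

theorem heisB_sq (n : ℕ) : ∀ x ∈ heisB n, x ^ 2 = 1 := by
  intro x hx
  have hx' : x.a = 0 := hx
  rw [heis_sq, hx', zero_dotProduct]

theorem heisB_card (n : ℕ) : Nat.card (heisB n) = 2 ^ (n + 1) := by
  have e : heisB n ≃ (Fin n → ZMod 2) × ZMod 2 :=
    { toFun := fun x => (x.1.b, x.1.c)
      invFun := fun t => ⟨⟨0, t.1, t.2⟩, rfl⟩
      left_inv := fun x => by
        have hx' : x.1.a = 0 := x.2
        apply Subtype.ext
        exact Cfsg.Agent.S3799.Heis.ext hx'.symm rfl rfl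
      right_inv := fun t => rfl }
  rw [Nat.card_congr e, Nat.card_prod, Nat.card_fun, Nat.card_zmod, Nat.card_fin, pow_succ]

def hqB (n : ℕ) : Subgroup (HQ n) where
  carrier := {s | s.a = 0 ∧ s.α = 0 ∧ s.β = 0}
  mul_mem' := by
    rintro s t ⟨h1, h2, h3⟩ ⟨h4, h5, h6⟩
    refine ⟨?_, ?_, ?_⟩
    · show (s * t).a = 0; rw [HQ.mul_a, h1, h4, add_zero]
    · show (s * t).α = 0; rw [HQ.mul_α, h2, h5, add_zero]
    · show (s * t).β = 0; rw [HQ.mul_β, h3, h6, add_zero]
  one_mem' := ⟨rfl, rfl, rfl⟩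
  inv_mem' := by
    rintro s ⟨h1, h2, h3⟩
    refine ⟨?_, ?_, ?_⟩
    · show (s⁻¹).a = 0; rw [HQ.inv_a, h1, neg_zero]
    · show (s⁻¹).α = 0; rw [HQ.inv_α, h2, neg_zero]
    · show (s⁻¹).β = 0; rw [HQ.inv_β, h3, neg_zero]

theorem hqB_comm (n : ℕ) : ∀ x ∈ hqB n, ∀ y ∈ hqB n, x * y = y * x := by
  rintro s ⟨h1, h2, h3⟩ t ⟨h4, h5, h6⟩
  refine HQ.ext ?_ ?_ ?_ ?_ ?_
  · rw [HQ.mul_a, HQ.mul_a, add_comm]
  · rw [HQ.mul_b, HQ.mul_b, add_comm]
  · rw [HQ.mul_c, HQ.mul_c, h1, h2, h3, h4, h5, h6]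
    simp [add_comm]
  · rw [HQ.mul_α, HQ.mul_α, add_comm]
  · rw [HQ.mul_β, HQ.mul_β, add_comm]

theorem hqB_sq (n : ℕ) : ∀ x ∈ hqB n, x ^ 2 = 1 := by
  rintro s ⟨h1, h2, h3⟩
  rw [hq_sq, h1, h2, h3]
  simp

theorem hqB_card (n : ℕ) : Nat.card (hqB n) = 2 ^ (n + 1) := by
  have e : hqB n ≃ (Fin n → ZMod 2) × ZMod 2 :=
    { toFun := fun x => (x.1.b, x.1.c)
      invFun := fun t => ⟨⟨0, t.1, t.2, 0, 0⟩, ⟨rfl, rfl, rfl⟩⟩
      left_inv := fun x => by
        obtain ⟨h1, h2, h3⟩ := x.2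
        apply Subtype.ext
        exact HQ.ext h1.symm rfl rfl h2.symm h3.symm
      right_inv := fun t => rfl }
  rw [Nat.card_congr e, Nat.card_prod, Nat.card_fun, Nat.card_zmod, Nat.card_fin, pow_succ]

/-! ### the minus-type model is extraspecial -/

theorem z2_add_self (u : ZMod 2) : u + u = 0 := by revert u; decide

theorem hq_mem_center {n : ℕ} (s : HQ n) :
    s ∈ Subgroup.center (HQ n) ↔ s.a = 0 ∧ s.b = 0 ∧ s.α = 0 ∧ s.β = 0 := by
  classical
  rw [Subgroup.mem_center_iff]
  constructor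
  · intro h
    refine ⟨?_, ?_, ?_, ?_⟩
    · funext j
      have := congrArg HQ.c (h ⟨0, Pi.single j 1, 0, 0, 0⟩)
      simp at this
      exact this
    · funext j
      have := congrArg HQ.c (h ⟨Pi.single j 1, 0, 0, 0, 0⟩)
      simp at this
      exact this
    · have := congrArg HQ.c (h ⟨0, 0, 0, 0, 1⟩)
      simp at this
      exact this
    · have := congrArg HQ.c (h ⟨0, 0, 0, 1, 0⟩)
      simp at this
      exact this
  · rintro ⟨ha, hb, hα, hβ⟩ g
    ext <;> simp [ha, hb, hα, hβ, add_comm]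

theorem hq_card_center {n : ℕ} : Nat.card (Subgroup.center (HQ n)) = 2 := by
  have e : Subgroup.center (HQ n) ≃ ZMod 2 :=
    { toFun := fun z => z.1.c
      invFun := fun c => ⟨⟨0, 0, c, 0, 0⟩, (hq_mem_center _).mpr ⟨rfl, rfl, rfl, rfl⟩⟩
      left_inv := fun z => by
        obtain ⟨ha, hb, hα, hβ⟩ := (hq_mem_center z.1).mp z.2
        apply Subtype.ext
        exact HQ.ext ha.symm hb.symm rfl hα.symm hβ.symm
      right_inv := fun c => rfl }
  rw [Nat.card_congr e, Nat.card_zmod]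

theorem hq_comm_le_center {n : ℕ} : commutator (HQ n) ≤ Subgroup.center (HQ n) := by
  rw [commutator_eq_closure, Subgroup.closure_le]
  rintro _ ⟨x, y, rfl⟩
  rw [SetLike.mem_coe, hq_mem_center, commutatorElement_def]
  refine ⟨?_, ?_, ?_, ?_⟩
  · simp
  · simp
  · simp only [HQ.mul_α, HQ.inv_α]; ring
  · simp only [HQ.mul_β, HQ.inv_β]; ring

theorem hq_comm_eq_center {n : ℕ} : commutator (HQ n) = Subgroup.center (HQ n) := by
  classical
  apply Subgroup.eq_of_le_of_card_ge hq_comm_le_center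
  have hdvd := Subgroup.card_dvd_of_le (hq_comm_le_center (n := n))
  rw [hq_card_center] at hdvd ⊢
  rcases (Nat.Prime.eq_one_or_self_of_dvd Nat.prime_two _ hdvd) with h1 | h1
  · exfalso
    have hbot : commutator (HQ n) = ⊥ := Subgroup.card_eq_one.mp h1
    have hmem := Subgroup.commutator_mem_commutator (Subgroup.mem_top (⟨0, 0, 0, 1, 0⟩ : HQ n))
      (Subgroup.mem_top (⟨0, 0, 0, 0, 1⟩ : HQ n))
    rw [← commutator_def, hbot, Subgroup.mem_bot] at hmem
    have hc := congrArg HQ.c (commutatorElement_eq_one_iff_commute.mp hmem).eq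
    simp at hc
  · exact le_of_eq h1.symm

theorem hq_frattini_eq_center {n : ℕ} : frattini (HQ n) = Subgroup.center (HQ n) := by
  haveI : Fact (Nat.Prime 2) := ⟨Nat.prime_two⟩
  have hP : IsPGroup 2 (HQ n) := IsPGroup.of_card HQ.card_hq
  apply le_antisymm
  · let f : HQ n →* Multiplicative ((Fin n → ZMod 2) × (Fin n → ZMod 2) × ZMod 2 × ZMod 2) :=
      { toFun := fun x => Multiplicative.ofAdd (x.a, x.b, x.α, x.β)
        map_one' := rfl
        map_mul' := fun x y => rfl }
    have h1 := Cfsg.Agent.Lib.Helper4.frattini_le_ker_of_elementary Nat.prime_two f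
      (fun x y => mul_comm _ _) (fun x => by
        show Multiplicative.ofAdd (x.a, x.b, x.α, x.β) ^ 2 = 1
        rw [← ofAdd_nsmul]
        have h2 : ∀ u : ZMod 2, u + u = 0 := z2_add_self
        have : 2 • (x.a, x.b, x.α, x.β) = 0 := by
          rw [two_nsmul]
          refine Prod.ext ?_ (Prod.ext ?_ (Prod.ext ?_ ?_))
          · funext j; exact h2 _
          · funext j; exact h2 _
          · exact h2 _
          · exact h2 _
        rw [this]; rfl)
    intro x hx
    have hx' := h1 hx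
    rw [MonoidHom.mem_ker] at hx'
    have h2 : (x.a, x.b, x.α, x.β) = 0 := hx'
    rw [hq_mem_center]
    exact ⟨congrArg Prod.fst h2, congrArg (fun t => t.2.1) h2, congrArg (fun t => t.2.2.1) h2,
      congrArg (fun t => t.2.2.2) h2⟩
  · rw [← hq_comm_eq_center]
    exact Cfsg.Agent.Lib.Lead.commutator_le_frattini_of_pGroup hP

theorem hq_extraspecial (n : ℕ) : Cfsg.IsExtraspecial 2 (HQ n) :=
  ⟨⟨IsPGroup.of_card HQ.card_hq, hq_frattini_eq_center, hq_comm_eq_center⟩, hq_card_center⟩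

/-! ### ranks by type -/

theorem hq_rank (m : ℕ) : Cfsg.PRankLE 2 (m + 1) (HQ m) := by
  have hcard : Nat.card (HQ m) = 2 ^ (2 * (m + 1) + 1) := by rw [HQ.card_hq]; congr 1; omega
  refine rank_le_minus (hq_extraspecial m) (m + 1) hcard ?_
  rw [hcard]
  have hj' : (Nat.card {x : HQ m // x ^ 2 = 1} : ℤ) + 2 ^ (m + 1) = 2 ^ (2 * m + 2) := by
    exact_mod_cast j_hq m
  have e1 : (2 : ℤ) ^ (2 * (m + 1) + 1) = 2 * 2 ^ (2 * m + 2) := by rw [pow_succ]; ring
  have hpos : (0 : ℤ) < 2 ^ (m + 1) := by positivity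
  push_cast
  rw [e1]
  linarith

theorem rank_types {E : Type*} [Group E] [Finite E] (hE : Cfsg.IsExtraspecial 2 E) :
    ∃ n, (Nonempty (Heis n 2 ≃* E) ∧ 1 ≤ n ∧ Nat.card E = 2 ^ (2 * n + 1) ∧
        Cfsg.PRankLE 2 (n + 1) E ∧ ¬ Cfsg.PRankLE 2 n E) ∨
      (Nonempty (HQ n ≃* E) ∧ Nat.card E = 2 ^ (2 * (n + 1) + 1) ∧
        Cfsg.PRankLE 2 (n + 1) E ∧ ¬ Cfsg.PRankLE 2 n E) := by
  obtain ⟨n, hn⟩ := Cfsg.Agent.S4416.types hE
  refine ⟨n, ?_⟩
  rcases hn with ⟨⟨e⟩, hn1, hcard, hj⟩ | ⟨⟨e⟩, hcard, hj⟩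
  · left
    refine ⟨⟨e⟩, hn1, hcard, rank_le_succ hE n hcard, ?_⟩
    exact not_rank_of_sub e (heisB n) (heisB_comm n) (heisB_sq n) n (by
      rw [heisB_card]; exact Nat.pow_lt_pow_right (by norm_num) (by omega))
  · right
    refine ⟨⟨e⟩, hcard, rank_le_minus hE (n + 1) hcard ?_, ?_⟩
    · rw [hcard]
      have hj' : (Nat.card {x : E // x ^ 2 = 1} : ℤ) + 2 ^ (n + 1) = 2 ^ (2 * (n + 1)) := by
        exact_mod_cast hj
      have e1 : (2 : ℤ) ^ (2 * (n + 1) + 1) = 2 * 2 ^ (2 * (n + 1)) := by rw [pow_succ]; ring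
      have hpos : (0 : ℤ) < 2 ^ (n + 1) := by positivity
      push_cast
      rw [e1]
      linarith
    · exact not_rank_of_sub e (hqB n) (hqB_comm n) (hqB_sq n) n (by
        rw [hqB_card]; exact Nat.pow_lt_pow_right (by norm_num) (by omega))

end Cfsg.Agent.Lib.Helper6.Rank2
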