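import Mathlib

set_option autoImplicit false

namespace Cfsg.Agent.Lib.Helper6

open MulAction Pointwise

/-- a pair block in the complement of a fixed set, built from a regular normal subgroup and an
involutory map of it commuting with the fixing subgroup -/
theorem pairBlock {G : Type*} [Group G] {X : Type*} [MulAction G X] (N : Subgroup G) [hN : N.Normal]
    (x : X) (hreg : ∀ a ∈ N, a • x = x → a = 1) (s : Set X) (hx : x ∈ s) (θ : G → G)
    (hθθ : ∀ a ∈ N, θ (θ a) = a)
    (hθk : ∀ k ∈ fixingSubgroup G s, ∀ a ∈ N, θ (k * a * k⁻¹) = k * θ a * k⁻¹)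
    (a : G) (ha : a ∈ N) (hθa : θ a ∈ N) (ha1 : a • x ∉ s) (ha2 : θ a • x ∉ s) :
    IsBlock (fixingSubgroup G s)
      ({⟨a • x, ha1⟩, ⟨θ a • x, ha2⟩} : Set (SubMulAction.ofFixingSubgroup G s)) := by
  have hinj : ∀ u ∈ N, ∀ v ∈ N, u • x = v • x → u = v := by
    intro u hu v hv h
    have h1 : (v⁻¹ * u) • x = x := by
      rw [mul_smul, h, inv_smul_smul]
    have h2 := hreg _ (N.mul_mem (N.inv_mem hv) hu) h1
    exact (inv_mul_eq_one.mp h2).symm
  rw [isBlock_iff_smul_eq_of_mem]
  intro k z hz hkz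
  have hkx : (k : G) • x = x := ((mem_fixingSubgroup_iff (M := G) (s := s)).mp k.2) x hx
  have hkx' : (k : G)⁻¹ • x = x := by rw [inv_smul_eq_iff, hkx]
  have ha'N : (k : G) * a * (k : G)⁻¹ ∈ N := hN.conj_mem a ha k
  have h1 : (k : G) • (a • x) = ((k : G) * a * (k : G)⁻¹) • x := by
    rw [mul_smul, mul_smul, hkx']
  have h2 : (k : G) • (θ a • x) = θ ((k : G) * a * (k : G)⁻¹) • x := by
    rw [hθk k k.2 a ha, mul_smul, mul_smul, hkx']
  have hθa'N : θ ((k : G) * a * (k : G)⁻¹) ∈ N := by
    rw [hθk k k.2 a ha]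
    exact hN.conj_mem _ hθa k
  have hcase : (k : G) * a * (k : G)⁻¹ = a ∨ (k : G) * a * (k : G)⁻¹ = θ a := by
    rcases hz with rfl | rfl
    · rcases hkz with h | h
      · left
        apply hinj _ ha'N _ ha
        have h3 : (k : G) • (a • x) = a • x := congrArg Subtype.val h
        rw [h1] at h3
        exact h3
      · right
        apply hinj _ ha'N _ hθa
        have h3 : (k : G) • (a • x) = θ a • x := congrArg Subtype.val h
        rw [h1] at h3
        exact h3
    · rcases hkz with h | h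
      · right
        have h3 : (k : G) • (θ a • x) = a • x := congrArg Subtype.val h
        rw [h2] at h3
        have h4 := hinj _ hθa'N _ ha h3
        rw [← hθθ _ ha'N, h4]
      · left
        have h3 : (k : G) • (θ a • x) = θ a • x := congrArg Subtype.val h
        rw [h2] at h3
        have h4 := hinj _ hθa'N _ hθa h3
        rw [← hθθ _ ha'N, h4, hθθ a ha]
  rw [Set.smul_set_insert, Set.smul_set_singleton]
  rcases hcase with h | h
  · have e1 : k • (⟨a • x, ha1⟩ : SubMulAction.ofFixingSubgroup G s) = ⟨a • x, ha1⟩ :=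
      Subtype.ext (by
        show (k : G) • (a • x) = a • x
        rw [h1, h])
    have e2 : k • (⟨θ a • x, ha2⟩ : SubMulAction.ofFixingSubgroup G s) = ⟨θ a • x, ha2⟩ :=
      Subtype.ext (by
        show (k : G) • (θ a • x) = θ a • x
        rw [h2, h])
    rw [e1, e2]
  · have e1 : k • (⟨a • x, ha1⟩ : SubMulAction.ofFixingSubgroup G s) = ⟨θ a • x, ha2⟩ :=
      Subtype.ext (by
        show (k : G) • (a • x) = θ a • x
        rw [h1, h])
    have e2 : k • (⟨θ a • x, ha2⟩ : SubMulAction.ofFixingSubgroup G s) = ⟨a • x, ha1⟩ :=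
      Subtype.ext (by
        show (k : G) • (θ a • x) = a • x
        rw [h2, h, hθθ a ha])
    rw [e1, e2, Set.pair_comm]

/-- consequence for a preprimitive fixing subgroup: the two points coincide or exhaust the
complement -/
theorem pairBlock_trivial {G : Type*} [Group G] {X : Type*} [MulAction G X] (N : Subgroup G)
    [hN : N.Normal]
    (x : X) (hreg : ∀ a ∈ N, a • x = x → a = 1) (s : Set X) (hx : x ∈ s) (θ : G → G)
    (hθθ : ∀ a ∈ N, θ (θ a) = a)
    (hθk : ∀ k ∈ fixingSubgroup G s, ∀ a ∈ N, θ (k * a * k⁻¹) = k * θ a * k⁻¹)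
    (a : G) (ha : a ∈ N) (hθa : θ a ∈ N) (ha1 : a • x ∉ s) (ha2 : θ a • x ∉ s)
    (hprim : IsPreprimitive (fixingSubgroup G s) (SubMulAction.ofFixingSubgroup G s)) :
    a • x = θ a • x ∨ ∀ z : X, z ∉ s → z = a • x ∨ z = θ a • x := by
  have hB := pairBlock N x hreg s hx θ hθθ hθk a ha hθa ha1 ha2
  rcases hprim.isTrivialBlock_of_isBlock hB with h | h
  · left
    have h1 := h (Set.mem_insert _ _) (Set.mem_insert_of_mem _ (Set.mem_singleton _))
    exact congrArg Subtype.val h1
  · right
    intro z hz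
    have h1 : (⟨z, hz⟩ : SubMulAction.ofFixingSubgroup G s) ∈
        ({⟨a • x, ha1⟩, ⟨θ a • x, ha2⟩} : Set (SubMulAction.ofFixingSubgroup G s)) := by
      rw [h]
      exact Set.mem_univ _
    rcases h1 with h2 | h2
    · left
      exact congrArg Subtype.val h2
    · right
      exact congrArg Subtype.val h2

end Cfsg.Agent.Lib.Helper6
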