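import Mathlib

namespace Cfsg.Agent.Lib.Helper6

open scoped Pointwise

/-- Orbit counting congruence: if the orbits of the `f s` are pairwise distinct of size `a`
and every other orbit has size divisible by `b`, then `|X| ≡ |S| * a [MOD b]`. -/
theorem card_modEq_of_orbit_reps {G X S : Type*} [Group G] [MulAction G X] [Finite X] [Finite S]
    (f : S → X) (hf : ∀ s t, f s ∈ MulAction.orbit G (f t) → s = t) (a b : ℕ)
    (ha : ∀ s, Nat.card (MulAction.orbit G (f s)) = a)
    (hb : ∀ x, (∀ s, f s ∉ MulAction.orbit G x) → b ∣ Nat.card (MulAction.orbit G x)) :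
    Nat.card X ≡ Nat.card S * a [MOD b] := by
  classical
  letI := Fintype.ofFinite X
  letI := Fintype.ofFinite S
  letI : Fintype (MulAction.orbitRel.Quotient G X) := Fintype.ofFinite _
  have h1 : Nat.card X = ∑ ω : MulAction.orbitRel.Quotient G X, Nat.card ω.orbit := by
    rw [Nat.card_congr (MulAction.selfEquivSigmaOrbits' G X), Nat.card_sigma]
  let q : S → MulAction.orbitRel.Quotient G X := fun s => Quotient.mk'' (f s)
  have hq : Function.Injective q := by
    intro s t hst
    apply hf
    exact Quotient.exact' hst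
  rw [h1, ← Finset.sum_filter_add_sum_filter_not Finset.univ (fun ω => ∃ s, q s = ω)]
  have h2 : ∑ ω ∈ Finset.univ.filter (fun ω => ∃ s, q s = ω), Nat.card ω.orbit
      = Nat.card S * a := by
    have : Finset.univ.filter (fun ω => ∃ s, q s = ω) = Finset.univ.image q := by
      ext ω; simp
    rw [this, Finset.sum_image (fun s _ t _ h => hq h)]
    simp only [q, MulAction.orbitRel.Quotient.orbit_mk, ha]
    simp [Nat.card_eq_fintype_card]
  have h3 : b ∣ ∑ ω ∈ Finset.univ.filter (fun ω => ¬ ∃ s, q s = ω), Nat.card ω.orbit := by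
    apply Finset.dvd_sum
    intro ω hω
    rw [Finset.mem_filter] at hω
    induction ω using Quotient.inductionOn' with
    | h x =>
      rw [MulAction.orbitRel.Quotient.orbit_mk]
      apply hb
      intro s hs
      apply hω.2
      exact ⟨s, Quotient.sound' hs⟩
  rw [h2]
  obtain ⟨c, hc⟩ := h3
  rw [hc]
  show (Nat.card S * a + b * c) % b = (Nat.card S * a) % b
  exact Nat.add_mul_mod_self_left _ _ _

/-- Lucas-type congruence `C(p^β m - 1, p^β - 1) ≡ 1 [MOD p]`. -/
theorem choose_pow_mul_sub_one_modEq (p : ℕ) (hp : p.Prime) (β : ℕ) :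
    ∀ m : ℕ, 0 < m → (p ^ β * m - 1).choose (p ^ β - 1) ≡ 1 [MOD p] := by
  have : Fact p.Prime := ⟨hp⟩
  have hp1 : 1 ≤ p := hp.one_lt.le
  have key : ∀ t : ℕ, 0 < t → (p * t - 1) % p = p - 1 ∧ (p * t - 1) / p = t - 1 := by
    intro t ht
    obtain ⟨t', rfl⟩ : ∃ t', t = t' + 1 := ⟨t - 1, by omega⟩
    have e : p * (t' + 1) - 1 = p * t' + (p - 1) := by
      rw [Nat.mul_succ]; omega
    rw [e]
    constructor
    · rw [Nat.mul_add_mod, Nat.mod_eq_of_lt (by omega)]
    · rw [Nat.mul_add_div (by omega), Nat.div_eq_of_lt (by omega)]; simp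
  induction β with
  | zero => intro m hm; simp [Nat.ModEq]
  | succ β ih =>
    intro m hm
    have h1 := key (p ^ β * m) (Nat.mul_pos (pow_pos (by omega) _) hm)
    have h2 := key (p ^ β) (pow_pos (by omega) _)
    have e1 : p ^ (β + 1) * m = p * (p ^ β * m) := by ring
    have e2 : p ^ (β + 1) = p * p ^ β := by ring
    have := Choose.choose_modEq_choose_mod_mul_choose_div_nat (p := p)
      (n := p ^ (β + 1) * m - 1) (k := p ^ (β + 1) - 1)
    rw [e1, e2, h1.1, h1.2, h2.1, h2.2, Nat.choose_self, one_mul] at this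
    rw [e1, e2]
    exact this.trans (ih m hm)

/-- `C(n m, n) = m * C(n m - 1, n - 1)` for `0 < n`. -/
theorem choose_mul_eq (n m : ℕ) (hn : 0 < n) (hm : 0 < m) :
    (n * m).choose n = m * (n * m - 1).choose (n - 1) := by
  have h := Nat.add_one_mul_choose_eq (n * m - 1) (n - 1)
  have e1 : (n * m - 1) + 1 = n * m := by
    have := Nat.mul_pos hn hm; omega
  have e2 : (n - 1) + 1 = n := by omega
  rw [e1, e2] at h
  have : n * (m * (n * m - 1).choose (n - 1)) = n * (n * m).choose n := by
    rw [← mul_assoc, h, mul_comm]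
  exact (Nat.eq_of_mul_eq_mul_left hn this).symm

/-- Orbit–stabilizer in `Nat.card` form. -/
theorem natCard_orbit_mul_natCard_stabilizer {G X : Type*} [Group G] [MulAction G X] (x : X) :
    Nat.card (MulAction.orbit G x) * Nat.card (MulAction.stabilizer G x) = Nat.card G := by
  rw [← Nat.card_prod]
  exact Nat.card_congr (MulAction.orbitProdStabilizerEquivGroup G x)

section Wielandt

variable {G : Type*} [Group G] [Finite G]

omit [Finite G] in
theorem wielandt_smul_mem [DecidableEq G] {n : ℕ} (X : Set.powersetCard G n) (s : G)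
    (hs : s ∈ MulAction.stabilizer G X) (x : G) (hx : x ∈ (X : Finset G)) :
    s * x ∈ (X : Finset G) := by
  have h : s • X = X := hs
  have h2 : s • (X : Finset G) = (X : Finset G) := by
    rw [← Set.powersetCard.coe_smul, h]
  rw [← h2]
  exact Finset.smul_mem_smul_finset hx

theorem wielandt_stab_card_dvd [DecidableEq G] {n : ℕ} (X : Set.powersetCard G n) :
    Nat.card (MulAction.stabilizer G X) ∣ n := by
  let Y : SubMulAction (MulAction.stabilizer G X) G :=
    { carrier := ((X : Finset G) : Set G)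
      smul_mem' := fun s x hx => by
        have := wielandt_smul_mem X s.1 s.2 x (Finset.mem_coe.mp hx)
        exact Finset.mem_coe.mpr this }
  have hfree : ∀ y : Y, MulAction.stabilizer (MulAction.stabilizer G X) y = ⊥ := by
    intro y
    rw [eq_bot_iff]
    intro s hs
    rw [MulAction.mem_stabilizer_iff] at hs
    have h := congrArg (fun z : Y => (z : G)) hs
    simp only [SubMulAction.val_smul, Subgroup.smul_def, smul_eq_mul] at h
    rw [Subgroup.mem_bot]
    exact Subtype.ext (mul_eq_right.mp h)
  have e := MulAction.selfEquivOrbitsQuotientProd hfree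
  have hY : Nat.card Y = n := by
    have e2 : Y ≃ (X : Finset G) := Equiv.subtypeEquivRight (fun x => by
      show x ∈ ((X : Finset G) : Set G) ↔ x ∈ (X : Finset G)
      exact Finset.mem_coe)
    rw [Nat.card_congr e2, Nat.card_eq_fintype_card, Fintype.card_coe, Set.powersetCard.card_eq]
  have h3 : Nat.card (MulAction.stabilizer G X) ∣ Nat.card Y := by
    rw [Nat.card_congr e, Nat.card_prod]
    exact dvd_mul_left _ _
  rwa [hY] at h3

theorem wielandt_stab_eq [DecidableEq G] {n : ℕ} (X : Set.powersetCard G n)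
    (h1 : (1 : G) ∈ (X : Finset G))
    (hc : Nat.card (MulAction.stabilizer G X) = n) :
    ((MulAction.stabilizer G X : Subgroup G) : Set G) = ((X : Finset G) : Set G) := by
  apply Set.eq_of_subset_of_ncard_le
  · intro s hs
    have := wielandt_smul_mem X s hs 1 h1
    rw [mul_one] at this
    exact Finset.mem_coe.mpr this
  · rw [Set.ncard_coe_finset, Set.powersetCard.card_eq, ← Nat.card_coe_set_eq]
    exact le_of_eq hc.symm
  · exact Set.toFinite _

/-- A subgroup of order `n` as an `n`-element subset. -/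
noncomputable def subgroupCombo {n : ℕ} (K : Subgroup G) (hK : Nat.card K = n) :
    Set.powersetCard G n :=
  ⟨(Set.toFinite (K : Set G)).toFinset, by
    rw [Set.powersetCard.mem_iff, ← Set.ncard_eq_toFinset_card, ← Nat.card_coe_set_eq]
    exact hK⟩

theorem mem_subgroupCombo {n : ℕ} (K : Subgroup G) (hK : Nat.card K = n) (x : G) :
    x ∈ (subgroupCombo K hK : Finset G) ↔ x ∈ K := by
  simp [subgroupCombo]

theorem smul_subgroupCombo_eq [DecidableEq G] {n : ℕ} (K : Subgroup G) (hK : Nat.card K = n)
    (K' : Subgroup G) (hK' : Nat.card K' = n) (g : G)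
    (h : g • subgroupCombo K hK = subgroupCombo K' hK') : K = K' ∧ g ∈ K := by
  have h2 : g • (subgroupCombo K hK : Finset G) = (subgroupCombo K' hK' : Finset G) := by
    rw [← Set.powersetCard.coe_smul, h]
  have hg : g ∈ K := by
    have h1 : (1 : G) ∈ (subgroupCombo K' hK' : Finset G) := by
      rw [mem_subgroupCombo]; exact K'.one_mem
    rw [← h2, Finset.mem_smul_finset] at h1
    obtain ⟨k, hk, hk1⟩ := h1
    rw [mem_subgroupCombo] at hk
    rw [smul_eq_mul] at hk1
    have : g = k⁻¹ := eq_inv_of_mul_eq_one_left hk1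
    rw [this]; exact K.inv_mem hk
  refine ⟨?_, hg⟩
  ext y
  rw [← mem_subgroupCombo K' hK', ← h2, ← Finset.inv_smul_mem_iff, mem_subgroupCombo, smul_eq_mul]
  exact (K.mul_mem_cancel_left (K.inv_mem hg)).symm

theorem stabilizer_subgroupCombo [DecidableEq G] {n : ℕ} (K : Subgroup G) (hK : Nat.card K = n) :
    MulAction.stabilizer G (subgroupCombo K hK) = K := by
  ext g
  rw [MulAction.mem_stabilizer_iff]
  constructor
  · intro h; exact (smul_subgroupCombo_eq K hK K hK g h).2
  · intro hg
    apply Subtype.ext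
    rw [Set.powersetCard.coe_smul]
    ext y
    rw [← Finset.inv_smul_mem_iff, mem_subgroupCombo, mem_subgroupCombo, smul_eq_mul]
    exact K.mul_mem_cancel_left (K.inv_mem hg)

/-- **Frobenius / Wielandt**: the number of subgroups of order `p ^ β` is `≡ 1 [MOD p]`. -/
theorem wielandt_card_modEq (p β m : ℕ) (hp : p.Prime) (hm : 0 < m)
    (hG : Nat.card G = p ^ β * m) :
    Nat.card {H : Subgroup G // Nat.card H = p ^ β} ≡ 1 [MOD p] := by
  classical
  set n := p ^ β with hn
  have hn0 : 0 < n := pow_pos hp.pos _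
  have key := card_modEq_of_orbit_reps (G := G) (X := Set.powersetCard G n)
    (S := {H : Subgroup G // Nat.card H = n}) (fun K => subgroupCombo K.1 K.2) ?_ m (p * m) ?_ ?_
  · rw [Set.powersetCard.card, hG, choose_mul_eq n m hn0 hm, mul_comm p m,
      mul_comm (Nat.card _) m] at key
    have h2 := Nat.ModEq.mul_left_cancel' hm.ne' key
    exact h2.symm.trans (choose_pow_mul_sub_one_modEq p hp β m hm)
  · rintro ⟨K, hK⟩ ⟨K', hK'⟩ h
    obtain ⟨g, hg⟩ := h
    exact Subtype.ext (smul_subgroupCombo_eq K' hK' K hK g hg).1.symm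
  · rintro ⟨K, hK⟩
    have h := natCard_orbit_mul_natCard_stabilizer (G := G) (subgroupCombo K hK)
    rw [stabilizer_subgroupCombo, hK, hG, mul_comm] at h
    exact Nat.eq_of_mul_eq_mul_left hn0 h
  · intro X hX
    have hdvd := wielandt_stab_card_dvd X
    obtain ⟨j, hj, hcard⟩ := (Nat.dvd_prime_pow hp).1 hdvd
    have horb := natCard_orbit_mul_natCard_stabilizer (G := G) X
    rw [hcard, hG] at horb
    rcases hj.lt_or_eq with hlt | rfl
    · obtain ⟨d, rfl⟩ : ∃ d, β = j + d + 1 := ⟨β - j - 1, by omega⟩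
      have h3 : p ^ j * Nat.card (MulAction.orbit G X) = p ^ j * (p ^ (d + 1) * m) := by
        rw [mul_comm, horb, hn]; ring
      have h4 : Nat.card (MulAction.orbit G X) = p ^ (d + 1) * m :=
        Nat.eq_of_mul_eq_mul_left (pow_pos hp.pos j) h3
      rw [h4, pow_succ, mul_assoc]
      exact Dvd.intro_left _ rfl
    · exfalso
      have hne : (X : Finset G).Nonempty := by
        rw [← Finset.card_pos, Set.powersetCard.card_eq]; exact hn0
      obtain ⟨x, hx⟩ := hne
      have h1 : (1 : G) ∈ ((x⁻¹ • X : Set.powersetCard G n) : Finset G) := by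
        rw [Set.powersetCard.coe_smul, ← Finset.inv_smul_mem_iff]; simpa using hx
      have hc' : Nat.card (MulAction.stabilizer G (x⁻¹ • X)) = n := by
        rw [MulAction.stabilizer_smul_eq_stabilizer_map_conj,
          Subgroup.card_map_of_injective (MulAut.conj x⁻¹).injective, hcard]
      have heq := wielandt_stab_eq (x⁻¹ • X) h1 hc'
      apply hX ⟨MulAction.stabilizer G (x⁻¹ • X), hc'⟩
      have h5 : subgroupCombo (MulAction.stabilizer G (x⁻¹ • X)) hc' = x⁻¹ • X := by
        apply Subtype.ext
        ext y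
        rw [mem_subgroupCombo]
        exact Set.ext_iff.mp heq y
      show subgroupCombo (MulAction.stabilizer G (x⁻¹ • X)) hc' ∈ MulAction.orbit G X
      rw [h5]
      exact ⟨x⁻¹, rfl⟩

end Wielandt

end Cfsg.Agent.Lib.Helper6
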